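import Cfsg.Agent.Lib.OddChar.CyclicTI

/-! # The T.I. set of a self-normalising cyclic subgroup; the table of a cyclic T.I. family. -/

set_option autoImplicit false

namespace Cfsg.Agent.Lib.OddChar

open Cfsg Cfsg.Agent.Lib.Char
open scoped ComplexConjugate

section Cyclic

variable {A : Type*} [Group A] [Finite A] [IsCyclic A]

/-- In a cyclic group a subgroup contains all solutions of `x ^ |K| = 1`. -/
theorem mem_of_pow_card_eq_one (K : Subgroup A) {y : A} (hy : y ^ Nat.card K = 1) : y ∈ K := by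
  classical
  letI := Fintype.ofFinite A
  have hpos : 0 < Nat.card K := Nat.card_pos
  have hle := IsCyclic.card_pow_eq_one_le (α := A) hpos
  have hsub : (Finset.univ.filter (· ∈ K)) ⊆ (Finset.univ.filter fun a : A => a ^ Nat.card K = 1) := by
    intro a ha
    simp only [Finset.mem_filter, Finset.mem_univ, true_and] at ha ⊢
    exact orderOf_dvd_iff_pow_eq_one.mp (Subgroup.orderOf_dvd_natCard K ha)
  have hcard : (Finset.univ.filter (· ∈ K)).card = Nat.card K := by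
    rw [Nat.card_eq_fintype_card, Fintype.card_subtype]
  have heq := Finset.eq_of_subset_of_card_le hsub (by rw [hcard]; exact hle)
  have : y ∈ Finset.univ.filter fun a : A => a ^ Nat.card K = 1 :=
    Finset.mem_filter.mpr ⟨Finset.mem_univ _, hy⟩
  rw [← heq] at this
  simpa using this

end Cyclic

section TI

variable {G : Type*} [Group G] [Finite G] {W₁ W₂ : Subgroup G}

/-- The set `W \ (W₁ ∪ W₂)`. -/
def tiSet (W₁ W₂ : Subgroup G) : Set G := (↑(W₁ ⊔ W₂) : Set G) \ (↑W₁ ∪ ↑W₂)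

theorem mem_tiSet {x : G} : x ∈ tiSet W₁ W₂ ↔ x ∈ W₁ ⊔ W₂ ∧ x ∉ W₁ ∧ x ∉ W₂ := by
  simp only [tiSet, Set.mem_diff, Set.mem_union, SetLike.mem_coe, not_or]

theorem mem_normalizer_singleton {t x : G} : x ∈ Subgroup.normalizer ({t} : Set G) ↔ x * t = t * x := by
  have hmem : x ∈ Subgroup.normalizer ({t} : Set G) ↔
      ∀ n, n ∈ ({t} : Set G) ↔ x * n * x⁻¹ ∈ ({t} : Set G) := Iff.rfl
  rw [hmem]
  constructor
  · intro h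
    have h1 := (h t).mp rfl
    have h2 : x * t * x⁻¹ = t := h1
    calc x * t = x * t * x⁻¹ * x := by group
      _ = t * x := by rw [h2]
  · intro h n
    constructor
    · rintro rfl
      change x * n * x⁻¹ = n
      rw [h]
      group
    · intro hn
      have h2 : x * n * x⁻¹ = t := hn
      change n = t
      have h3 : n = x⁻¹ * t * x := by rw [← h2]; group
      rw [h3]
      have h4 : x⁻¹ * t = t * x⁻¹ := by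
        calc x⁻¹ * t = x⁻¹ * (t * x) * x⁻¹ := by group
          _ = x⁻¹ * (x * t) * x⁻¹ := by rw [h]
          _ = t * x⁻¹ := by group
      rw [h4]
      group

theorem conj_aux (hW : IsSelfNormalizingCyclic W₁ W₂) {g t : G} (ht : t ∈ tiSet W₁ W₂)
    (hgt : g * t * g⁻¹ ∈ tiSet W₁ W₂) :
    (∀ w ∈ W₁ ⊔ W₂, g * w * g⁻¹ ∈ W₁ ⊔ W₂) ∧ (∀ x ∈ W₁, g * x * g⁻¹ ∈ W₁) ∧
      (∀ x ∈ W₂, g * x * g⁻¹ ∈ W₂) := by
  obtain ⟨-, -, -, -, hcyc, hnorm⟩ := hW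
  have hT : ∀ y ∈ tiSet W₁ W₂, Subgroup.normalizer ({y} : Set G) = W₁ ⊔ W₂ := by
    intro y hy
    exact hnorm {y} (Set.singleton_subset_iff.mpr hy) (Set.singleton_nonempty y)
  have h1 : ∀ w ∈ W₁ ⊔ W₂, g * w * g⁻¹ ∈ W₁ ⊔ W₂ := by
    intro w hw
    rw [← hT _ hgt, mem_normalizer_singleton]
    rw [← hT _ ht, mem_normalizer_singleton] at hw
    calc g * w * g⁻¹ * (g * t * g⁻¹) = g * (w * t) * g⁻¹ := by group
      _ = g * (t * w) * g⁻¹ := by rw [hw]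
      _ = g * t * g⁻¹ * (g * w * g⁻¹) := by group
  have hstable : ∀ K : Subgroup G, K ≤ W₁ ⊔ W₂ → ∀ x ∈ K, g * x * g⁻¹ ∈ K := by
    intro K hK x hx
    let K' : Subgroup ↥(W₁ ⊔ W₂) := K.subgroupOf (W₁ ⊔ W₂)
    have hcard : Nat.card K' = Nat.card K :=
      Nat.card_congr (Subgroup.subgroupOfEquivOfLe hK).toEquiv
    let y : ↥(W₁ ⊔ W₂) := ⟨g * x * g⁻¹, h1 x (hK hx)⟩
    have hy : y ^ Nat.card K' = 1 := by
      apply Subtype.ext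
      simp only [SubmonoidClass.coe_pow, OneMemClass.coe_one, y, hcard]
      rw [conj_pow, orderOf_dvd_iff_pow_eq_one.mp (Subgroup.orderOf_dvd_natCard K hx)]
      group
    exact mem_of_pow_card_eq_one K' hy
  exact ⟨h1, hstable W₁ le_sup_left, hstable W₂ le_sup_right⟩

/-- The T.I. property of `W \ (W₁ ∪ W₂)`. -/
theorem mem_W_of_conj (hW : IsSelfNormalizingCyclic W₁ W₂) {g t : G} (ht : t ∈ tiSet W₁ W₂)
    (hgt : g * t * g⁻¹ ∈ tiSet W₁ W₂) : g ∈ W₁ ⊔ W₂ := by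
  obtain ⟨h1, h2, h3⟩ := conj_aux hW ht hgt
  have ht' : g⁻¹ * (g * t * g⁻¹) * g⁻¹⁻¹ ∈ tiSet W₁ W₂ := by
    have e : g⁻¹ * (g * t * g⁻¹) * g⁻¹⁻¹ = t := by group
    rwa [e]
  obtain ⟨h1', h2', h3'⟩ := conj_aux hW hgt ht'
  have hN := hW.2.2.2.2.2 (tiSet W₁ W₂) (fun x hx => hx) ⟨t, ht⟩
  rw [← hN]
  have hmem : g ∈ Subgroup.normalizer (tiSet W₁ W₂) ↔
      ∀ n, n ∈ tiSet W₁ W₂ ↔ g * n * g⁻¹ ∈ tiSet W₁ W₂ := Iff.rfl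
  rw [hmem]
  intro n
  simp only [mem_tiSet]
  have eg : g⁻¹ * (g * n * g⁻¹) * g⁻¹⁻¹ = n := by group
  constructor
  · rintro ⟨hn, hn1, hn2⟩
    refine ⟨h1 n hn, fun h => hn1 ?_, fun h => hn2 ?_⟩
    · have := h2' _ h
      rwa [eg] at this
    · have := h3' _ h
      rwa [eg] at this
  · rintro ⟨hn, hn1, hn2⟩
    refine ⟨?_, fun h => hn1 (h2 n h), fun h => hn2 (h3 n h)⟩
    have := h1' _ hn
    rwa [eg] at this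

variable [Fintype G]

/-- The inner product of two induced functions `(1-φ)(1-ψ)`. -/
theorem classInner_indFun_alpha (hW : IsSelfNormalizingCyclic W₁ W₂)
    {φ φ' ψ ψ' : ↥(W₁ ⊔ W₂) →* ℂˣ} [Decidable (φ = φ')] [Decidable (ψ = ψ')] (hφ1 : φ ≠ 1) (hφ'1 : φ' ≠ 1) (hψ1 : ψ ≠ 1) (hψ'1 : ψ' ≠ 1)
    (hφ : ∀ w : ↥(W₁ ⊔ W₂), (w : G) ∈ W₂ → φ w = 1) (hφ' : ∀ w : ↥(W₁ ⊔ W₂), (w : G) ∈ W₂ → φ' w = 1)
    (hψ : ∀ w : ↥(W₁ ⊔ W₂), (w : G) ∈ W₁ → ψ w = 1) (hψ' : ∀ w : ↥(W₁ ⊔ W₂), (w : G) ∈ W₁ → ψ' w = 1) :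
    classInner (indFun (W₁ ⊔ W₂) (fun w => 1 - (φ w : ℂ) - (ψ w : ℂ) + (φ w : ℂ) * (ψ w : ℂ)))
      (indFun (W₁ ⊔ W₂) (fun w => 1 - (φ' w : ℂ) - (ψ' w : ℂ) + (φ' w : ℂ) * (ψ' w : ℂ))) =
    1 + (if φ = φ' then 1 else 0) + (if ψ = ψ' then 1 else 0) +
      (if φ = φ' then 1 else 0) * (if ψ = ψ' then 1 else 0) := by
  letI : Fintype ↥(W₁ ⊔ W₂) := Fintype.ofFinite _
  have hcomm := hW.2.2.2.1
  have hcyc := hW.2.2.2.2.1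
  have hcl : IsClassFunction ↥(W₁ ⊔ W₂)
      (fun w => 1 - (φ' w : ℂ) - (ψ' w : ℂ) + (φ' w : ℂ) * (ψ' w : ℂ)) := by
    intro g h
    letI := IsCyclic.commGroup (α := ↥(W₁ ⊔ W₂))
    have : h * g * h⁻¹ = g := by
      rw [mul_comm h g, mul_inv_cancel_right]
    simp only [this]
  have hout : ∀ (a b : ↥(W₁ ⊔ W₂) →* ℂˣ), (∀ w : ↥(W₁ ⊔ W₂), (w : G) ∈ W₂ → a w = 1) →
      (∀ w : ↥(W₁ ⊔ W₂), (w : G) ∈ W₁ → b w = 1) → ∀ x : ↥(W₁ ⊔ W₂), (x : G) ∉ tiSet W₁ W₂ →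
      1 - (a x : ℂ) - (b x : ℂ) + (a x : ℂ) * (b x : ℂ) = 0 := by
    intro a b ha hb x hx
    refine alpha_eq_zero ha hb x ?_
    by_contra hcon
    push Not at hcon
    exact hx (mem_tiSet.mpr ⟨x.2, hcon.1, hcon.2⟩)
  rw [classInner_indFun_of_TI (W₁ ⊔ W₂) (tiSet W₁ W₂) ?_ _ _ hcl (hout φ ψ hφ hψ) (hout φ' ψ' hφ' hψ')
    (by simp)]
  · exact classInner_alpha hcomm hφ1 hφ'1 hψ1 hψ'1 hφ hφ' hψ hψ'
  · intro g hg t ht hgt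
    exact absurd (mem_W_of_conj hW ht hgt) hg

end TI

section Table

variable {G : Type*} [Group G] [Fintype G] {W₁ W₂ : Subgroup G}

/-- The pairing with a class function of the relation in a cyclic T.I. family. -/
theorem classInner_family (χ : (↥(W₁ ⊔ W₂) →* ℂˣ) → (G → ℂ)) (hχ : IsCyclicTIFamily W₁ W₂ χ)
    (θ : G → ℂ) {φ ψ : ↥(W₁ ⊔ W₂) →* ℂˣ} (hφ1 : φ ≠ 1) (hψ1 : ψ ≠ 1)
    (hφ : ∀ w : ↥(W₁ ⊔ W₂), (w : G) ∈ W₂ → φ w = 1)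
    (hψ : ∀ w : ↥(W₁ ⊔ W₂), (w : G) ∈ W₁ → ψ w = 1) :
    classInner θ (indFun (W₁ ⊔ W₂) (fun w => 1 - (φ w : ℂ) - (ψ w : ℂ) + (φ w : ℂ) * (ψ w : ℂ))) =
      classInner θ (χ 1) - classInner θ (χ φ) - classInner θ (χ ψ) + classInner θ (χ (φ * ψ)) := by
  rw [hχ.induced_eq φ ψ hφ1 hψ1 hφ hψ, hχ.map_one]
  simp only [classInner, map_add, map_sub, map_one, ← mul_add, ← mul_sub, ← Finset.sum_add_distrib,
    ← Finset.sum_sub_distrib, mul_one]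
  congr 1
  refine Finset.sum_congr rfl fun x _ => ?_
  ring

/-- The table relation. -/
theorem table_eq (hcomm : ∀ a ∈ W₁, ∀ b ∈ W₂, a * b = b * a)
    (χ : (↥(W₁ ⊔ W₂) →* ℂˣ) → (G → ℂ)) (hχ : IsCyclicTIFamily W₁ W₂ χ)
    (θ : G → ℂ) (hθ : IsClassFunction G θ)
    (hθV : ∀ w : ↥(W₁ ⊔ W₂), (w : G) ∉ W₁ → (w : G) ∉ W₂ → θ w = 0) {φ ψ : ↥(W₁ ⊔ W₂) →* ℂˣ}
    (hφ : ∀ w : ↥(W₁ ⊔ W₂), (w : G) ∈ W₂ → φ w = 1)
    (hψ : ∀ w : ↥(W₁ ⊔ W₂), (w : G) ∈ W₁ → ψ w = 1) :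
    classInner θ (χ (φ * ψ)) = classInner θ (χ φ) + classInner θ (χ ψ) - classInner θ (χ 1) := by
  classical
  letI : Fintype ↥(W₁ ⊔ W₂) := Fintype.ofFinite _
  by_cases hφ1 : φ = 1
  · subst hφ1
    have : (1 : ↥(W₁ ⊔ W₂) →* ℂˣ) * ψ = ψ := by ext x; simp
    rw [this]
    ring
  by_cases hψ1 : ψ = 1
  · subst hψ1
    have : φ * (1 : ↥(W₁ ⊔ W₂) →* ℂˣ) = φ := by ext x; simp
    rw [this]
    ring
  have h1 := classInner_family χ hχ θ hφ1 hψ1 hφ hψ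
  rw [classInner_indFun_right _ _ θ hθ] at h1
  have h2 : classInner (fun h : ↥(W₁ ⊔ W₂) => θ h)
      (fun w => 1 - (φ w : ℂ) - (ψ w : ℂ) + (φ w : ℂ) * (ψ w : ℂ)) = 0 := by
    simp only [classInner]
    refine mul_eq_zero_of_right _ (Finset.sum_eq_zero fun w _ => ?_)
    by_cases hw1 : (w : G) ∈ W₁
    · rw [alpha_eq_zero hφ hψ w (Or.inl hw1)]
      simp
    by_cases hw2 : (w : G) ∈ W₂
    · rw [alpha_eq_zero hφ hψ w (Or.inr hw2)]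
      simp
    rw [hθV w hw1 hw2, zero_mul]
  rw [h2] at h1
  linear_combination -h1

omit [Fintype G] in
/-- A function on `W` orthogonal to all `(1-φ)(1-ψ)` vanishes off `W₁ ∪ W₂`. -/
theorem eq_zero_of_orthogonal_alpha [Finite G] [Fintype ↥(W₁ ⊔ W₂)] (hdisj : W₁ ⊓ W₂ = ⊥)
    (hAcomm : ∀ a b : ↥(W₁ ⊔ W₂), a * b = b * a) (f : ↥(W₁ ⊔ W₂) → ℂ)
    (hf : ∀ φ ψ : ↥(W₁ ⊔ W₂) →* ℂˣ, (∀ w : ↥(W₁ ⊔ W₂), (w : G) ∈ W₂ → φ w = 1) →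
      (∀ w : ↥(W₁ ⊔ W₂), (w : G) ∈ W₁ → ψ w = 1) →
      classInner (fun w => 1 - (φ w : ℂ) - (ψ w : ℂ) + (φ w : ℂ) * (ψ w : ℂ)) f = 0)
    (w : ↥(W₁ ⊔ W₂)) (hw₁ : (w : G) ∉ W₁) (hw₂ : (w : G) ∉ W₂) : f w = 0 := by
  classical
  let K₁ : Subgroup ↥(W₁ ⊔ W₂) := W₁.subgroupOf (W₁ ⊔ W₂)
  let K₂ : Subgroup ↥(W₁ ⊔ W₂) := W₂.subgroupOf (W₁ ⊔ W₂)
  haveI := finite_triv hAcomm K₁
  haveI := finite_triv hAcomm K₂
  letI : Fintype {φ : ↥(W₁ ⊔ W₂) →* ℂˣ // ∀ k ∈ K₁, φ k = 1} := Fintype.ofFinite _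
  letI : Fintype {φ : ↥(W₁ ⊔ W₂) →* ℂˣ // ∀ k ∈ K₂, φ k = 1} := Fintype.ofFinite _
  have hK₁ : ∀ v : ↥(W₁ ⊔ W₂), v ∈ K₁ ↔ (v : G) ∈ W₁ := fun v => Subgroup.mem_subgroupOf
  have hK₂ : ∀ v : ↥(W₁ ⊔ W₂), v ∈ K₂ ↔ (v : G) ∈ W₂ := fun v => Subgroup.mem_subgroupOf
  -- the combination
  let F : ↥(W₁ ⊔ W₂) → ℂ := fun v =>
    ∑ φ : {φ : ↥(W₁ ⊔ W₂) →* ℂˣ // ∀ k ∈ K₂, φ k = 1}, ∑ ψ : {φ : ↥(W₁ ⊔ W₂) →* ℂˣ // ∀ k ∈ K₁, φ k = 1},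
      ((φ.1 w⁻¹ : ℂˣ) : ℂ) * ((ψ.1 w⁻¹ : ℂˣ) : ℂ) *
        (1 - (φ.1 v : ℂ) - (ψ.1 v : ℂ) + (φ.1 v : ℂ) * (ψ.1 v : ℂ))
  have hzero : ∑ v : ↥(W₁ ⊔ W₂), F v * conj (f v) = 0 := by
    simp only [F, Finset.sum_mul]
    rw [Finset.sum_comm]
    refine Finset.sum_eq_zero fun φ _ => ?_
    rw [Finset.sum_comm]
    refine Finset.sum_eq_zero fun ψ _ => ?_
    have h1 := hf φ.1 ψ.1 (fun v hv => φ.2 v ((hK₂ v).mpr hv)) (fun v hv => ψ.2 v ((hK₁ v).mpr hv))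
    simp only [classInner] at h1
    have hW0 : ((Nat.card ↥(W₁ ⊔ W₂) : ℕ) : ℂ)⁻¹ ≠ 0 :=
      inv_ne_zero (by exact_mod_cast Nat.card_pos.ne')
    have h2 := (mul_eq_zero.mp h1).resolve_left hW0
    have h3 : ∀ v : ↥(W₁ ⊔ W₂), ((φ.1 w⁻¹ : ℂˣ) : ℂ) * ((ψ.1 w⁻¹ : ℂˣ) : ℂ) *
        (1 - (φ.1 v : ℂ) - (ψ.1 v : ℂ) + (φ.1 v : ℂ) * (ψ.1 v : ℂ)) * conj (f v) =
        ((φ.1 w⁻¹ : ℂˣ) : ℂ) * ((ψ.1 w⁻¹ : ℂˣ) : ℂ) *
        ((1 - (φ.1 v : ℂ) - (ψ.1 v : ℂ) + (φ.1 v : ℂ) * (ψ.1 v : ℂ)) * conj (f v)) := by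
      intro v
      ring
    simp only [h3]
    rw [← Finset.mul_sum, h2, mul_zero]
  have hF : ∀ v, F v = (if w⁻¹ * v ∈ K₂ then (K₂.index : ℂ) else 0) *
      (if w⁻¹ * v ∈ K₁ then (K₁.index : ℂ) else 0) := by
    intro v
    have h1 : ∀ (φ : {φ : ↥(W₁ ⊔ W₂) →* ℂˣ // ∀ k ∈ K₂, φ k = 1})
        (ψ : {φ : ↥(W₁ ⊔ W₂) →* ℂˣ // ∀ k ∈ K₁, φ k = 1}),
        ((φ.1 w⁻¹ : ℂˣ) : ℂ) * ((ψ.1 w⁻¹ : ℂˣ) : ℂ) *
          (1 - (φ.1 v : ℂ) - (ψ.1 v : ℂ) + (φ.1 v : ℂ) * (ψ.1 v : ℂ)) =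
        (((φ.1 w⁻¹ : ℂˣ) : ℂ) - ((φ.1 (w⁻¹ * v) : ℂˣ) : ℂ)) *
          (((ψ.1 w⁻¹ : ℂˣ) : ℂ) - ((ψ.1 (w⁻¹ * v) : ℂˣ) : ℂ)) := by
      intro φ ψ
      simp only [map_mul, Units.val_mul]
      ring
    simp only [F, h1]
    rw [← Finset.sum_mul_sum, Finset.sum_sub_distrib, Finset.sum_sub_distrib, sum_triv hAcomm K₂,
      sum_triv hAcomm K₂, sum_triv hAcomm K₁, sum_triv hAcomm K₁]
    have h2 : w⁻¹ ∉ K₂ := fun h => hw₂ ((hK₂ w).mp (by simpa using K₂.inv_mem h))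
    have h3 : w⁻¹ ∉ K₁ := fun h => hw₁ ((hK₁ w).mp (by simpa using K₁.inv_mem h))
    rw [if_neg h2, if_neg h3]
    ring
  have hsingle : ∑ v : ↥(W₁ ⊔ W₂), F v * conj (f v) = F w * conj (f w) := by
    refine Finset.sum_eq_single w (fun v _ hv => ?_) (fun h => absurd (Finset.mem_univ _) h)
    rw [hF]
    by_cases h1 : w⁻¹ * v ∈ K₂
    · by_cases h2 : w⁻¹ * v ∈ K₁
      · exfalso
        apply hv
        have h3 : ((w⁻¹ * v : ↥(W₁ ⊔ W₂)) : G) ∈ W₁ ⊓ W₂ := ⟨(hK₁ _).mp h2, (hK₂ _).mp h1⟩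
        rw [hdisj] at h3
        have h4 : w⁻¹ * v = 1 := Subtype.ext (by simpa using h3)
        exact (inv_mul_eq_one.mp h4).symm
      · rw [if_neg h2]
        simp
    · rw [if_neg h1]
      simp
  rw [hsingle, hF] at hzero
  have h5 : w⁻¹ * w = 1 := by group
  simp only [h5, K₁.one_mem, K₂.one_mem, if_true] at hzero
  have hi₁ : (K₁.index : ℂ) ≠ 0 := by exact_mod_cast Subgroup.index_ne_zero_of_finite
  have hi₂ : (K₂.index : ℂ) ≠ 0 := by exact_mod_cast Subgroup.index_ne_zero_of_finite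
  have h6 := (mul_eq_zero.mp hzero).resolve_left (mul_ne_zero hi₂ hi₁)
  simpa using h6

end Table

end Cfsg.Agent.Lib.OddChar
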