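import Cfsg.Agent.Lib.Char.TI
import Cfsg.Agent.Lib.Char.Linear
import Cfsg.Agent.Lib.OddLocal.Sup
import Cfsg.Prelude.Def_OddOrderChar
import Cfsg.Prelude.Def_OddOrderLocal

/-! # Characters of a direct product `W = W₁ × W₂`; the functions `(1 - φ)(1 - ψ)`. -/

set_option autoImplicit false

namespace Cfsg.Agent.Lib.OddChar

open Cfsg Cfsg.Agent.Lib.Char
open scoped ComplexConjugate

section Dual

variable {A : Type*} [Group A] [Finite A]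

theorem finite_hom (hcomm : ∀ a b : A, a * b = b * a) : Finite (A →* ℂˣ) := by
  letI : CommGroup A := { (inferInstance : Group A) with mul_comm := hcomm }
  exact Finite.of_equiv A (CommGroup.monoidHom_mulEquiv_of_hasEnoughRootsOfUnity A ℂ).some.toEquiv.symm

theorem card_hom (hcomm : ∀ a b : A, a * b = b * a) : Nat.card (A →* ℂˣ) = Nat.card A := by
  letI : CommGroup A := { (inferInstance : Group A) with mul_comm := hcomm }
  exact CommGroup.card_monoidHom_of_hasEnoughRootsOfUnity A ℂ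

theorem normal_of_comm' (hcomm : ∀ a b : A, a * b = b * a) (K : Subgroup A) : K.Normal :=
  ⟨fun n hn g => by rw [hcomm g n, mul_inv_cancel_right]; exact hn⟩

/-- The characters trivial on `K` are those of the quotient. -/
noncomputable def trivEquiv (K : Subgroup A) [K.Normal] :
    {φ : A →* ℂˣ // ∀ k ∈ K, φ k = 1} ≃ ((A ⧸ K) →* ℂˣ) where
  toFun φ := QuotientGroup.lift K φ.1 φ.2
  invFun ξ := ⟨ξ.comp (QuotientGroup.mk' K), fun k hk => by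
    simp only [MonoidHom.comp_apply, QuotientGroup.mk'_apply]
    rw [(QuotientGroup.eq_one_iff k).mpr hk, map_one]⟩
  left_inv φ := by
    apply Subtype.ext
    ext a
    rfl
  right_inv ξ := by
    ext a
    rfl

theorem card_triv (hcomm : ∀ a b : A, a * b = b * a) (K : Subgroup A) :
    Nat.card {φ : A →* ℂˣ // ∀ k ∈ K, φ k = 1} = K.index := by
  haveI := normal_of_comm' hcomm K
  rw [Nat.card_congr (trivEquiv K)]
  have hc : ∀ a b : A ⧸ K, a * b = b * a := by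
    intro a b
    induction a using QuotientGroup.induction_on with | H x => ?_
    induction b using QuotientGroup.induction_on with | H y => ?_
    rw [← QuotientGroup.mk_mul, ← QuotientGroup.mk_mul, hcomm]
  rw [card_hom hc]
  rfl

theorem finite_triv (hcomm : ∀ a b : A, a * b = b * a) (K : Subgroup A) :
    Finite {φ : A →* ℂˣ // ∀ k ∈ K, φ k = 1} := by
  haveI := finite_hom hcomm
  infer_instance

/-- Column orthogonality for the characters trivial on `K`. -/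
theorem sum_triv (hcomm : ∀ a b : A, a * b = b * a) (K : Subgroup A)
    [Fintype {φ : A →* ℂˣ // ∀ k ∈ K, φ k = 1}] (a : A) [Decidable (a ∈ K)] :
    ∑ φ : {φ : A →* ℂˣ // ∀ k ∈ K, φ k = 1}, ((φ.1 a : ℂˣ) : ℂ) = if a ∈ K then (K.index : ℂ) else 0 := by
  classical
  haveI := normal_of_comm' hcomm K
  split_ifs with ha
  · have h1 : ∀ φ : {φ : A →* ℂˣ // ∀ k ∈ K, φ k = 1}, ((φ.1 a : ℂˣ) : ℂ) = 1 := by
      intro φ
      rw [φ.2 a ha, Units.val_one]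
    simp only [h1, Finset.sum_const, Finset.card_univ, nsmul_eq_mul, mul_one]
    rw [← Nat.card_eq_fintype_card, card_triv hcomm]
  · have hne : ((a : A ⧸ K)) ≠ 1 := fun h => ha ((QuotientGroup.eq_one_iff a).mp h)
    have hc : ∀ a b : A ⧸ K, a * b = b * a := by
      intro a b
      induction a using QuotientGroup.induction_on with | H x => ?_
      induction b using QuotientGroup.induction_on with | H y => ?_
      rw [← QuotientGroup.mk_mul, ← QuotientGroup.mk_mul, hcomm]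
    letI : CommGroup (A ⧸ K) := { (inferInstance : Group (A ⧸ K)) with mul_comm := hc }
    obtain ⟨ξ, hξ⟩ := CommGroup.exists_apply_ne_one_of_hasEnoughRootsOfUnity (A ⧸ K) ℂ hne
    let φ₀ : {φ : A →* ℂˣ // ∀ k ∈ K, φ k = 1} := (trivEquiv K).symm ξ
    have hφ₀ : ((φ₀.1 a : ℂˣ) : ℂ) ≠ 1 := by
      intro h
      have h' : φ₀.1 a = 1 := Units.ext (by simpa using h)
      exact hξ h'
    have hmul : ∀ φ : {φ : A →* ℂˣ // ∀ k ∈ K, φ k = 1}, ∀ k ∈ K, (φ₀.1 * φ.1) k = 1 := by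
      intro φ k hk
      rw [MonoidHom.mul_apply, φ₀.2 k hk, φ.2 k hk, one_mul]
    let e : {φ : A →* ℂˣ // ∀ k ∈ K, φ k = 1} ≃ {φ : A →* ℂˣ // ∀ k ∈ K, φ k = 1} :=
      { toFun := fun φ => ⟨φ₀.1 * φ.1, hmul φ⟩
        invFun := fun φ => ⟨φ₀.1⁻¹ * φ.1, fun k hk => by
          rw [MonoidHom.mul_apply, MonoidHom.inv_apply, φ₀.2 k hk, φ.2 k hk]
          simp⟩
        left_inv := fun φ => Subtype.ext (by ext x; simp [MonoidHom.mul_apply, MonoidHom.inv_apply])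
        right_inv := fun φ => Subtype.ext (by ext x; simp [MonoidHom.mul_apply, MonoidHom.inv_apply]) }
    have h2 : ∑ φ : {φ : A →* ℂˣ // ∀ k ∈ K, φ k = 1}, ((φ.1 a : ℂˣ) : ℂ) =
        ((φ₀.1 a : ℂˣ) : ℂ) * ∑ φ : {φ : A →* ℂˣ // ∀ k ∈ K, φ k = 1}, ((φ.1 a : ℂˣ) : ℂ) := by
      rw [Finset.mul_sum]
      refine Fintype.sum_equiv e.symm _ _ fun φ => ?_
      change ((φ.1 a : ℂˣ) : ℂ) = ((φ₀.1 a : ℂˣ) : ℂ) * (((φ₀.1⁻¹ * φ.1) a : ℂˣ) : ℂ)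
      rw [MonoidHom.mul_apply, MonoidHom.inv_apply, Units.val_mul, ← mul_assoc]
      simp
    have h3 : (1 - ((φ₀.1 a : ℂˣ) : ℂ)) * ∑ φ : {φ : A →* ℂˣ // ∀ k ∈ K, φ k = 1}, ((φ.1 a : ℂˣ) : ℂ) = 0 := by
      rw [sub_mul, one_mul, ← h2, sub_self]
    rcases mul_eq_zero.mp h3 with h | h
    · exact absurd (sub_eq_zero.mp h).symm hφ₀
    · exact h

variable [Fintype A]

theorem classInner_hom (φ φ' : A →* ℂˣ) [Decidable (φ = φ')] :
    classInner (fun a => ((φ a : ℂˣ) : ℂ)) (fun a => ((φ' a : ℂˣ) : ℂ)) = if φ = φ' then 1 else 0 := by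
  split_ifs with h
  · rw [h]
    exact classInner_irr_self (isIrrCharacter_of_monoidHom φ')
  · refine classInner_irr_of_ne (isIrrCharacter_of_monoidHom φ) (isIrrCharacter_of_monoidHom φ') ?_
    intro h2
    apply h
    ext a
    exact congrFun h2 a

theorem classInner_four {X : Type*} [Group X] [Fintype X] (f₁ f₂ f₃ f₄ g₁ g₂ g₃ g₄ : X → ℂ) :
    classInner (fun x => f₁ x - f₂ x - f₃ x + f₄ x) (fun x => g₁ x - g₂ x - g₃ x + g₄ x) =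
      classInner f₁ g₁ - classInner f₁ g₂ - classInner f₁ g₃ + classInner f₁ g₄
      - (classInner f₂ g₁ - classInner f₂ g₂ - classInner f₂ g₃ + classInner f₂ g₄)
      - (classInner f₃ g₁ - classInner f₃ g₂ - classInner f₃ g₃ + classInner f₃ g₄)
      + (classInner f₄ g₁ - classInner f₄ g₂ - classInner f₄ g₃ + classInner f₄ g₄) := by
  simp only [classInner, map_add, map_sub, ← mul_add, ← mul_sub, ← Finset.sum_add_distrib,
    ← Finset.sum_sub_distrib]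
  congr 1
  refine Finset.sum_congr rfl fun x _ => ?_
  ring

end Dual

section Pair

variable {G : Type*} [Group G] {W₁ W₂ : Subgroup G}

theorem W_decomp (hcomm : ∀ a ∈ W₁, ∀ b ∈ W₂, a * b = b * a) (w : ↥(W₁ ⊔ W₂)) :
    ∃ a ∈ W₁, ∃ b ∈ W₂, a * b = (w : G) := by
  have hN : W₂ ≤ Subgroup.normalizer (W₁ : Set G) := by
    intro b hb
    rw [Subgroup.mem_normalizer_iff]
    intro a
    constructor
    · intro ha
      rw [← hcomm a ha b hb]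
      simpa using ha
    · intro ha
      have h1 : b⁻¹ * (b * a * b⁻¹) * b⁻¹⁻¹ ∈ W₁ := by
        have hb' := W₂.inv_mem hb
        rw [← hcomm _ ha _ hb']
        simpa using ha
      have e : b⁻¹ * (b * a * b⁻¹) * b⁻¹⁻¹ = a := by group
      rwa [e] at h1
  exact OddLocal.mem_sup_of_le_normalizer hN w.2

theorem W_comm (hcomm : ∀ a ∈ W₁, ∀ b ∈ W₂, a * b = b * a) (h1 : ∀ a ∈ W₁, ∀ b ∈ W₁, a * b = b * a)
    (h2 : ∀ a ∈ W₂, ∀ b ∈ W₂, a * b = b * a) (x y : ↥(W₁ ⊔ W₂)) : x * y = y * x := by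
  obtain ⟨a, ha, b, hb, hab⟩ := W_decomp hcomm x
  obtain ⟨c, hc, d, hd, hcd⟩ := W_decomp hcomm y
  apply Subtype.ext
  simp only [Subgroup.coe_mul]
  rw [← hab, ← hcd]
  calc a * b * (c * d) = (a * c) * (b * d) := by
        rw [mul_assoc a b, ← mul_assoc b c, ← hcomm c hc b hb]; group
    _ = (c * a) * (d * b) := by rw [h1 a ha c hc, h2 b hb d hd]
    _ = c * d * (a * b) := by
        rw [mul_assoc c a, ← mul_assoc a d, hcomm a ha d hd]; group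

/-- Characters trivial on `W₂` and on `W₁` multiply injectively. -/
theorem hom_product_unique (hcomm : ∀ a ∈ W₁, ∀ b ∈ W₂, a * b = b * a)
    {φ φ' ψ ψ' : ↥(W₁ ⊔ W₂) →* ℂˣ}
    (hφ : ∀ w : ↥(W₁ ⊔ W₂), (w : G) ∈ W₂ → φ w = 1) (hφ' : ∀ w : ↥(W₁ ⊔ W₂), (w : G) ∈ W₂ → φ' w = 1)
    (hψ : ∀ w : ↥(W₁ ⊔ W₂), (w : G) ∈ W₁ → ψ w = 1) (hψ' : ∀ w : ↥(W₁ ⊔ W₂), (w : G) ∈ W₁ → ψ' w = 1)
    (h : φ * ψ = φ' * ψ') : φ = φ' ∧ ψ = ψ' := by
  have hval : ∀ w : ↥(W₁ ⊔ W₂), φ w * ψ w = φ' w * ψ' w := fun w => by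
    have := congrArg (fun f => f w) h
    simpa using this
  constructor
  · ext w
    obtain ⟨a, ha, b, hb, hab⟩ := W_decomp hcomm w
    let a' : ↥(W₁ ⊔ W₂) := ⟨a, (le_sup_left : W₁ ≤ W₁ ⊔ W₂) ha⟩
    let b' : ↥(W₁ ⊔ W₂) := ⟨b, (le_sup_right : W₂ ≤ W₁ ⊔ W₂) hb⟩
    have hw : w = a' * b' := Subtype.ext hab.symm
    have h1 := hval a'
    rw [hψ a' ha, hψ' a' ha, mul_one, mul_one] at h1
    rw [hw, map_mul, map_mul, hφ b' hb, hφ' b' hb, h1]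
  · ext w
    obtain ⟨a, ha, b, hb, hab⟩ := W_decomp hcomm w
    let a' : ↥(W₁ ⊔ W₂) := ⟨a, (le_sup_left : W₁ ≤ W₁ ⊔ W₂) ha⟩
    let b' : ↥(W₁ ⊔ W₂) := ⟨b, (le_sup_right : W₂ ≤ W₁ ⊔ W₂) hb⟩
    have hw : w = a' * b' := Subtype.ext hab.symm
    have h1 := hval b'
    rw [hφ b' hb, hφ' b' hb, one_mul, one_mul] at h1
    rw [hw, map_mul, map_mul, hψ a' ha, hψ' a' ha, h1]

/-- A character trivial on both factors is trivial. -/
theorem hom_eq_one_of_triv (hcomm : ∀ a ∈ W₁, ∀ b ∈ W₂, a * b = b * a)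
    {φ : ↥(W₁ ⊔ W₂) →* ℂˣ} (h1 : ∀ w : ↥(W₁ ⊔ W₂), (w : G) ∈ W₁ → φ w = 1)
    (h2 : ∀ w : ↥(W₁ ⊔ W₂), (w : G) ∈ W₂ → φ w = 1) : φ = 1 := by
  ext w
  obtain ⟨a, ha, b, hb, hab⟩ := W_decomp hcomm w
  let a' : ↥(W₁ ⊔ W₂) := ⟨a, (le_sup_left : W₁ ≤ W₁ ⊔ W₂) ha⟩
  let b' : ↥(W₁ ⊔ W₂) := ⟨b, (le_sup_right : W₂ ≤ W₁ ⊔ W₂) hb⟩
  have hw : w = a' * b' := Subtype.ext hab.symm
  rw [hw, map_mul, h1 a' ha, h2 b' hb]
  simp

/-- The value of `(1-φ)(1-ψ)` vanishes on the two factors. -/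
theorem alpha_eq_zero {φ ψ : ↥(W₁ ⊔ W₂) →* ℂˣ}
    (hφ : ∀ w : ↥(W₁ ⊔ W₂), (w : G) ∈ W₂ → φ w = 1)
    (hψ : ∀ w : ↥(W₁ ⊔ W₂), (w : G) ∈ W₁ → ψ w = 1) (w : ↥(W₁ ⊔ W₂))
    (hw : (w : G) ∈ W₁ ∨ (w : G) ∈ W₂) :
    1 - (φ w : ℂ) - (ψ w : ℂ) + (φ w : ℂ) * (ψ w : ℂ) = 0 := by
  rcases hw with h | h
  · rw [hψ w h]
    simp
  · rw [hφ w h]
    simp

variable [Fintype ↥(W₁ ⊔ W₂)]

/-- Inner products of the functions `(1-φ)(1-ψ)`. -/
theorem classInner_alpha (hcomm : ∀ a ∈ W₁, ∀ b ∈ W₂, a * b = b * a)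
    {φ φ' ψ ψ' : ↥(W₁ ⊔ W₂) →* ℂˣ} [Decidable (φ = φ')] [Decidable (ψ = ψ')] (hφ1 : φ ≠ 1) (hφ'1 : φ' ≠ 1) (hψ1 : ψ ≠ 1) (hψ'1 : ψ' ≠ 1)
    (hφ : ∀ w : ↥(W₁ ⊔ W₂), (w : G) ∈ W₂ → φ w = 1) (hφ' : ∀ w : ↥(W₁ ⊔ W₂), (w : G) ∈ W₂ → φ' w = 1)
    (hψ : ∀ w : ↥(W₁ ⊔ W₂), (w : G) ∈ W₁ → ψ w = 1) (hψ' : ∀ w : ↥(W₁ ⊔ W₂), (w : G) ∈ W₁ → ψ' w = 1) :
    classInner (fun w : ↥(W₁ ⊔ W₂) => 1 - (φ w : ℂ) - (ψ w : ℂ) + (φ w : ℂ) * (ψ w : ℂ))
      (fun w : ↥(W₁ ⊔ W₂) => 1 - (φ' w : ℂ) - (ψ' w : ℂ) + (φ' w : ℂ) * (ψ' w : ℂ)) =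
    1 + (if φ = φ' then 1 else 0) + (if ψ = ψ' then 1 else 0) +
      (if φ = φ' then 1 else 0) * (if ψ = ψ' then 1 else 0) := by
  classical
  have e1 : ∀ θ : ↥(W₁ ⊔ W₂) →* ℂˣ, θ = 1 → (fun w : ↥(W₁ ⊔ W₂) => ((θ w : ℂˣ) : ℂ)) = fun _ => 1 := by
    intro θ h
    rw [h]
    funext w
    simp
  have hone : (fun _ : ↥(W₁ ⊔ W₂) => (1 : ℂ)) = fun w => (((1 : ↥(W₁ ⊔ W₂) →* ℂˣ) w : ℂˣ) : ℂ) := by
    funext w
    simp
  have hmul : ∀ a b : ↥(W₁ ⊔ W₂) →* ℂˣ, (fun w : ↥(W₁ ⊔ W₂) => ((a w : ℂˣ) : ℂ) * ((b w : ℂˣ) : ℂ)) =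
      fun w => (((a * b) w : ℂˣ) : ℂ) := by
    intro a b
    funext w
    simp
  have hexp := classInner_four (fun _ : ↥(W₁ ⊔ W₂) => (1 : ℂ)) (fun w => (φ w : ℂ)) (fun w => (ψ w : ℂ))
    (fun w => (φ w : ℂ) * (ψ w : ℂ)) (fun _ => (1 : ℂ)) (fun w => (φ' w : ℂ)) (fun w => (ψ' w : ℂ))
    (fun w => (φ' w : ℂ) * (ψ' w : ℂ))
  rw [hexp]
  simp only [hone, hmul, classInner_hom]
  -- the sixteen terms
  have a1 : ¬ (1 : ↥(W₁ ⊔ W₂) →* ℂˣ) = φ' := fun h => hφ'1 h.symm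
  have a2 : ¬ (1 : ↥(W₁ ⊔ W₂) →* ℂˣ) = ψ' := fun h => hψ'1 h.symm
  have a3 : ¬ (1 : ↥(W₁ ⊔ W₂) →* ℂˣ) = φ' * ψ' := by
    intro h
    have := hom_product_unique hcomm (φ := 1) (ψ := 1) (by simp) hφ' (by simp) hψ' ((mul_one _).trans h)
    exact hφ'1 this.1.symm
  have a4 : ¬ φ = 1 := hφ1
  have a5 : ¬ φ = ψ' := by
    intro h
    apply hφ1
    refine hom_eq_one_of_triv hcomm ?_ hφ
    rw [h]
    exact hψ'
  have a6 : ¬ φ = φ' * ψ' := by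
    intro h
    have := hom_product_unique hcomm (φ := φ) (ψ := 1) hφ hφ' (by simp) hψ' ((mul_one _).trans h)
    exact hψ'1 this.2.symm
  have a7 : ¬ ψ = 1 := hψ1
  have a8 : ¬ ψ = φ' := by
    intro h
    apply hψ1
    refine hom_eq_one_of_triv hcomm hψ ?_
    rw [h]
    exact hφ'
  have a9 : ¬ ψ = φ' * ψ' := by
    intro h
    have := hom_product_unique hcomm (φ := 1) (ψ := ψ) (by simp) hφ' hψ hψ' ((one_mul _).trans h)
    exact hφ'1 this.1.symm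
  have a10 : ¬ φ * ψ = 1 := by
    intro h
    have := hom_product_unique hcomm (φ' := 1) (ψ' := 1) hφ (by simp) hψ (by simp) (h.trans (by ext x; simp))
    exact hφ1 this.1
  have a11 : ¬ φ * ψ = φ' := by
    intro h
    have := hom_product_unique hcomm (φ' := φ') (ψ' := 1) hφ hφ' hψ (by simp) (h.trans (by ext x; simp))
    exact hψ1 this.2
  have a12 : ¬ φ * ψ = ψ' := by
    intro h
    have := hom_product_unique hcomm (φ' := 1) (ψ' := ψ') hφ (by simp) hψ hψ' (h.trans (by ext x; simp))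
    exact hφ1 this.1
  simp only [a1, a2, a3, a4, a5, a6, a7, a8, a9, a10, a11, a12, if_false, if_true]
  have a13 : (φ * ψ = φ' * ψ') ↔ (φ = φ' ∧ ψ = ψ') :=
    ⟨fun h => hom_product_unique hcomm hφ hφ' hψ hψ' h, fun h => by rw [h.1, h.2]⟩
  by_cases h1 : φ = φ' <;> by_cases h2 : ψ = ψ' <;> simp [a13, h1, h2]

end Pair

end Cfsg.Agent.Lib.OddChar
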