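import Cfsg.Prelude.Def_OddOrderChar
import Cfsg.Agent.S1498
import Cfsg.Agent.Lib.OddLocal.Sup
import Mathlib.GroupTheory.OrderOfElement
import Mathlib.Data.Nat.ChineseRemainder
import Mathlib.Tactic

/-! # The Dade hypothesis: the coset decomposition -/

set_option autoImplicit false

namespace Cfsg.Agent.Lib.OddChar

open Cfsg

variable {G : Type*} [Group G] [Finite G] {A : Set G} {L : Subgroup G} {H : G → Subgroup G}

theorem DadeHypothesis.mem_centralizer_self {a : G} (hD : DadeHypothesis A L H) (ha : a ∈ A) :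
    a ∈ L ⊓ Subgroup.centralizer ({a} : Set G) :=
  ⟨hD.subset ha, Subgroup.mem_centralizer_singleton_iff.mpr rfl⟩

theorem DadeHypothesis.coprime_order {a b : G} (hD : DadeHypothesis A L H) (ha : a ∈ A) (hb : b ∈ A) :
    Nat.Coprime (Nat.card (H b)) (orderOf a) :=
  Nat.Coprime.coprime_dvd_right (Subgroup.orderOf_dvd_natCard _ (DadeHypothesis.mem_centralizer_self hD ha))
    (hD.coprime b hb a ha)

/-- The uniform extraction of `a` and `b` from the cosets. -/
theorem DadeHypothesis.exists_pow {a b u v : G} (hD : DadeHypothesis A L H) (ha : a ∈ A) (hb : b ∈ A)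
    (hu : u ∈ H a) (hv : v ∈ H b) :
    ∃ k : ℕ, (a * u) ^ k = a ∧ (b * v) ^ k = b := by
  have h1 : Nat.Coprime (orderOf a * orderOf b) (Nat.card (H a) * Nat.card (H b)) := by
    apply Nat.Coprime.mul_left <;> apply Nat.Coprime.mul_right
    · exact (DadeHypothesis.coprime_order hD ha ha).symm
    · exact (DadeHypothesis.coprime_order hD ha hb).symm
    · exact (DadeHypothesis.coprime_order hD hb ha).symm
    · exact (DadeHypothesis.coprime_order hD hb hb).symm
  obtain ⟨k, hk1, hk0⟩ := Nat.chineseRemainder h1 1 0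
  refine ⟨k, ?_, ?_⟩
  · have hc : Commute a u := (Subgroup.mem_centralizer_singleton_iff.mp (hD.le_centralizer a ha hu)).symm
    rw [hc.mul_pow]
    have h2 : a ^ k = a ^ 1 := pow_eq_pow_iff_modEq.mpr (hk1.of_dvd (Dvd.intro _ rfl))
    have h3 : u ^ k = 1 := orderOf_dvd_iff_pow_eq_one.mp
      ((Subgroup.orderOf_dvd_natCard _ hu).trans
        ((Dvd.intro _ rfl).trans ((Nat.modEq_zero_iff_dvd).mp hk0)))
    rw [h2, h3, pow_one, mul_one]
  · have hc : Commute b v := (Subgroup.mem_centralizer_singleton_iff.mp (hD.le_centralizer b hb hv)).symm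
    rw [hc.mul_pow]
    have h2 : b ^ k = b ^ 1 := pow_eq_pow_iff_modEq.mpr (hk1.of_dvd (Dvd.intro_left _ rfl))
    have h3 : v ^ k = 1 := orderOf_dvd_iff_pow_eq_one.mp
      ((Subgroup.orderOf_dvd_natCard _ hv).trans
        ((Dvd.intro_left _ rfl).trans ((Nat.modEq_zero_iff_dvd).mp hk0)))
    rw [h2, h3, pow_one, mul_one]

/-- Conjugating `a u` to `b v` conjugates `a` to `b`. -/
theorem DadeHypothesis.conj_eq {a b u v g : G} (hD : DadeHypothesis A L H) (ha : a ∈ A) (hb : b ∈ A)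
    (hu : u ∈ H a) (hv : v ∈ H b) (h : g * (a * u) * g⁻¹ = b * v) : g * a * g⁻¹ = b := by
  obtain ⟨k, hk1, hk2⟩ := DadeHypothesis.exists_pow hD ha hb hu hv
  have := congrArg (· ^ k) h
  simp only [conj_pow, hk1, hk2] at this
  exact this

/-- Conjugating `a u` to `b v` conjugates `u` to `v`. -/
theorem DadeHypothesis.conj_eq' {a b u v g : G} (hD : DadeHypothesis A L H) (ha : a ∈ A) (hb : b ∈ A)
    (hu : u ∈ H a) (hv : v ∈ H b) (h : g * (a * u) * g⁻¹ = b * v) : g * u * g⁻¹ = v := by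
  have h1 := DadeHypothesis.conj_eq hD ha hb hu hv h
  have h2 : g * (a * u) * g⁻¹ = (g * a * g⁻¹) * (g * u * g⁻¹) := by group
  rw [h2, h1] at h
  exact mul_left_cancel h

/-- Conjugation carries `H a` to `H (x a x⁻¹)` whenever both points lie in `A`. -/
theorem DadeHypothesis.conj_mem_H' {a x u : G} (hD : DadeHypothesis A L H) (ha : a ∈ A)
    (hxa : x * a * x⁻¹ ∈ A) (hu : u ∈ H a) : x * u * x⁻¹ ∈ H (x * a * x⁻¹) := by
  obtain ⟨y, hy, hyx⟩ := hD.fusion a ha x hxa
  rw [← hyx, Cfsg.Agent.S1498.result A L H hD a ha y hy]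
  have hc : y⁻¹ * x ∈ Subgroup.centralizer ({a} : Set G) := by
    rw [Subgroup.mem_centralizer_singleton_iff]
    calc y⁻¹ * x * a = y⁻¹ * (x * a * x⁻¹) * x := by group
      _ = y⁻¹ * (y * a * y⁻¹) * x := by rw [hyx]
      _ = a * (y⁻¹ * x) := by group
  have := hD.conj_mem_H a ha _ hc u hu
  refine ⟨_, this, ?_⟩
  simp only [MulEquiv.coe_toMonoidHom, MulAut.conj_apply]
  group

theorem DadeHypothesis.card_H_conj {a x : G} (hD : DadeHypothesis A L H) (ha : a ∈ A)
    (hxa : x * a * x⁻¹ ∈ A) : Nat.card (H (x * a * x⁻¹)) = Nat.card (H a) := by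
  obtain ⟨y, hy, hyx⟩ := hD.fusion a ha x hxa
  rw [← hyx, Cfsg.Agent.S1498.result A L H hD a ha y hy]
  exact Nat.card_congr ((H a).equivMapOfInjective _ (MulEquiv.injective _)).toEquiv.symm

/-- `E` normalises `H a`, where `E = L ⊓ C(a)`. -/
theorem DadeHypothesis.le_normalizer {a : G} (hD : DadeHypothesis A L H) (ha : a ∈ A) :
    L ⊓ Subgroup.centralizer ({a} : Set G) ≤ Subgroup.normalizer (H a : Set G) := by
  intro e he
  rw [Subgroup.mem_normalizer_iff]
  intro k
  constructor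
  · exact hD.conj_mem_H a ha e he.2 k
  · intro h
    have := hD.conj_mem_H a ha e⁻¹ (Subgroup.inv_mem _ he.2) _ h
    have e' : e⁻¹ * (e * k * e⁻¹) * e⁻¹⁻¹ = k := by group
    rwa [e'] at this

/-- The number of conjugators carrying `a` into `A`. -/
theorem DadeHypothesis.card_conj_mem {a : G} (hD : DadeHypothesis A L H) (ha : a ∈ A) :
    Nat.card {x : G // x * a * x⁻¹ ∈ A} = Nat.card L * Nat.card (H a) := by
  rw [← Nat.card_prod]
  symm
  have hmem : ∀ p : L × H a, (p.1 : G) * p.2 * a * ((p.1 : G) * p.2)⁻¹ ∈ A := by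
    rintro ⟨y, h⟩
    have h1 : (h : G) * a * (h : G)⁻¹ = a := by
      have := Subgroup.mem_centralizer_singleton_iff.mp (hD.le_centralizer a ha h.2)
      rw [this]
      group
    have h2 : (y : G) * h * a * ((y : G) * h)⁻¹ = y * ((h : G) * a * (h : G)⁻¹) * (y : G)⁻¹ := by
      group
    simp only
    rw [h2, h1]
    exact hD.conj_mem y y.2 a ha
  refine Nat.card_eq_of_bijective (fun p => ⟨_, hmem p⟩) ⟨?_, ?_⟩
  · rintro ⟨y, h⟩ ⟨y', h'⟩ he
    have he' : (y : G) * h = y' * h' := congrArg Subtype.val he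
    have h1 : (y' : G)⁻¹ * y = h' * (h : G)⁻¹ := by
      calc (y' : G)⁻¹ * y = (y' : G)⁻¹ * (y * h) * (h : G)⁻¹ := by group
        _ = (y' : G)⁻¹ * (y' * h') * (h : G)⁻¹ := by rw [he']
        _ = h' * (h : G)⁻¹ := by group
    have h2 : (h' : G) * (h : G)⁻¹ ∈ H a := (H a).mul_mem h'.2 ((H a).inv_mem h.2)
    have h3 : (h' : G) * (h : G)⁻¹ ∈ H a ⊓ (L ⊓ Subgroup.centralizer ({a} : Set G)) :=
      ⟨h2, by rw [← h1]; exact L.mul_mem (L.inv_mem y'.2) y.2, hD.le_centralizer a ha h2⟩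
    rw [hD.inf_eq_bot a ha] at h3
    have h4 : (h' : G) * (h : G)⁻¹ = 1 := by simpa using h3
    have h5 : (h : G) = h' := (mul_inv_eq_one.mp h4).symm
    have h6 : (y : G) = y' := by
      rw [h5] at he'
      exact mul_right_cancel he'
    exact Prod.ext (Subtype.ext h6) (Subtype.ext h5)
  · rintro ⟨x, hx⟩
    obtain ⟨y, hy, hyx⟩ := hD.fusion a ha x hx
    have hc : y⁻¹ * x ∈ Subgroup.centralizer ({a} : Set G) := by
      rw [Subgroup.mem_centralizer_singleton_iff]
      calc y⁻¹ * x * a = y⁻¹ * (x * a * x⁻¹) * x := by group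
        _ = y⁻¹ * (y * a * y⁻¹) * x := by rw [hyx]
        _ = a * (y⁻¹ * x) := by group
    rw [← hD.sup_eq a ha] at hc
    obtain ⟨h, hh, e, he, hhe⟩ := OddLocal.mem_sup_of_le_normalizer (DadeHypothesis.le_normalizer hD ha) hc
    -- `h * e = y⁻¹ x`; put `e` first
    have hh' : e * (e⁻¹ * h * e) = y⁻¹ * x := by rw [← hhe]; group
    have hh2 : e⁻¹ * h * e ∈ H a := by
      have := hD.conj_mem_H a ha e⁻¹ (Subgroup.inv_mem _ he.2) h hh
      simpa using this
    refine ⟨(⟨y * e, L.mul_mem hy he.1⟩, ⟨_, hh2⟩), ?_⟩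
    apply Subtype.ext
    simp only
    calc y * e * (e⁻¹ * h * e) = y * (e * (e⁻¹ * h * e)) := by group
      _ = y * (y⁻¹ * x) := by rw [hh']
      _ = x := by group

section Sum

variable [Fintype G]

/-- The support of the Dade map. -/
def dadeSupport (A : Set G) (H : G → Subgroup G) : Set G :=
  {g | ∃ a ∈ A, ∃ u ∈ H a, ∃ x : G, x * g * x⁻¹ = a * u}

open Classical in
/-- The weight counting the conjugators of `g` into the coset `a H(a)`. -/
noncomputable def weight (A : Set G) (H : G → Subgroup G) (a x g : G) : ℂ :=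
  if a ∈ A ∧ ∃ u ∈ H a, x * g * x⁻¹ = a * u then (Nat.card (H a) : ℂ)⁻¹ else 0

theorem sum_weight_of_coset {a₀ u₀ x₀ g : G} (hD : DadeHypothesis A L H) (ha₀ : a₀ ∈ A)
    (hu₀ : u₀ ∈ H a₀) (hg : x₀ * g * x₀⁻¹ = a₀ * u₀) :
    ∑ a : G, ∑ x : G, weight A H a x g = (Nat.card L : ℂ) := by
  classical
  rw [Finset.sum_comm]
  have hx : ∀ x : G, ∑ a : G, weight A H a x g =
      if (x * x₀⁻¹) * a₀ * (x * x₀⁻¹)⁻¹ ∈ A then (Nat.card (H a₀) : ℂ)⁻¹ else 0 := by
    intro x
    set t := x * x₀⁻¹ with ht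
    have hgt : x * g * x⁻¹ = t * (a₀ * u₀) * t⁻¹ := by
      rw [← hg, ht]
      group
    rw [Finset.sum_eq_single (t * a₀ * t⁻¹)]
    · simp only [weight]
      by_cases hA : t * a₀ * t⁻¹ ∈ A
      · rw [if_pos hA, if_pos]
        · rw [DadeHypothesis.card_H_conj hD ha₀ hA]
        · refine ⟨hA, t * u₀ * t⁻¹, DadeHypothesis.conj_mem_H' hD ha₀ hA hu₀, ?_⟩
          rw [hgt]
          group
      · rw [if_neg hA, if_neg]
        exact fun h => hA h.1
    · intro a _ hne
      simp only [weight]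
      rw [if_neg]
      rintro ⟨hA, u, hu, hxu⟩
      apply hne
      rw [hgt] at hxu
      exact (DadeHypothesis.conj_eq hD ha₀ hA hu₀ hu hxu).symm
    · simp
  simp only [hx]
  have h1 : ∑ x : G, (if (x * x₀⁻¹) * a₀ * (x * x₀⁻¹)⁻¹ ∈ A then (Nat.card (H a₀) : ℂ)⁻¹ else 0) =
      ∑ t : G, (if t * a₀ * t⁻¹ ∈ A then (Nat.card (H a₀) : ℂ)⁻¹ else 0) :=
    Fintype.sum_equiv (Equiv.mulRight x₀⁻¹) _ _ fun x => rfl
  rw [h1, Finset.sum_ite, Finset.sum_const, Finset.sum_const_zero, add_zero, nsmul_eq_mul]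
  have h2 : ((Finset.univ.filter fun t : G => t * a₀ * t⁻¹ ∈ A).card : ℂ) =
      (Nat.card L : ℂ) * (Nat.card (H a₀) : ℂ) := by
    rw [← Fintype.card_subtype, ← Nat.card_eq_fintype_card, DadeHypothesis.card_conj_mem hD ha₀]
    push_cast
    rfl
  rw [h2]
  have hne : (Nat.card (H a₀) : ℂ) ≠ 0 := by exact_mod_cast Nat.card_pos.ne'
  field_simp

theorem sum_weight_of_notMem {g : G} (hg : g ∉ dadeSupport A H) :
    ∑ a : G, ∑ x : G, weight A H a x g = 0 := by
  classical
  refine Finset.sum_eq_zero fun a _ => Finset.sum_eq_zero fun x _ => ?_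
  simp only [weight]
  rw [if_neg]
  rintro ⟨hA, u, hu, hxu⟩
  exact hg ⟨a, hA, u, hu, x, hxu⟩

open Classical in
theorem sum_weight (hD : DadeHypothesis A L H) (g : G) :
    ∑ a : G, ∑ x : G, weight A H a x g = if g ∈ dadeSupport A H then (Nat.card L : ℂ) else 0 := by
  split_ifs with h
  · obtain ⟨a, ha, u, hu, x, hx⟩ := h
    exact sum_weight_of_coset hD ha hu hx
  · exact sum_weight_of_notMem h

/-- Summing over a left coset `a H`. -/
theorem sum_coset_filter (K : Subgroup G) (a : G) (f : G → ℂ) [Fintype K]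
    [DecidablePred fun g : G => ∃ u ∈ K, g = a * u] :
    ∑ g : G, (if ∃ u ∈ K, g = a * u then f g else 0) = ∑ u : K, f (a * u) := by
  classical
  rw [← Finset.sum_filter]
  refine Finset.sum_bij' (fun g hg => ⟨a⁻¹ * g, ?_⟩) (fun u _ => a * u) ?_ ?_ ?_ ?_ ?_
  · obtain ⟨u, hu, rfl⟩ := (Finset.mem_filter.mp hg).2
    simpa using hu
  · intro g _
    exact Finset.mem_univ _
  · intro u _
    exact Finset.mem_filter.mpr ⟨Finset.mem_univ _, u, u.2, rfl⟩
  · intro g _
    simp
  · intro u _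
    simp
  · intro g _
    simp

/-- The main sum formula. -/
theorem dade_sum (hD : DadeHypothesis A L H) (f : G → ℂ) (hf : IsClassFunction G f)
    [∀ a, Fintype (H a)] [DecidablePred (· ∈ dadeSupport A H)] [DecidablePred (· ∈ A)] :
    (Nat.card L : ℂ) * ∑ g : G, (if g ∈ dadeSupport A H then f g else 0) =
      (Nat.card G : ℂ) * ∑ a : G, if a ∈ A then
        (Nat.card (H a) : ℂ)⁻¹ * ∑ u : H a, f (a * u) else 0 := by
  classical
  have h1 : (Nat.card L : ℂ) * ∑ g : G, (if g ∈ dadeSupport A H then f g else 0) =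
      ∑ g : G, (∑ a : G, ∑ x : G, weight A H a x g) * f g := by
    rw [Finset.mul_sum]
    refine Finset.sum_congr rfl fun g _ => ?_
    have := sum_weight hD g
    rw [this]
    by_cases hg : g ∈ dadeSupport A H
    · simp only [hg, if_true]
    · simp only [hg, if_false, zero_mul, mul_zero]
  rw [h1]
  simp only [Finset.sum_mul]
  rw [Finset.sum_comm]
  rw [Finset.mul_sum]
  refine Finset.sum_congr rfl fun a _ => ?_
  rw [Finset.sum_comm]
  by_cases ha : a ∈ A
  · rw [if_pos ha]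
    have h2 : ∀ x : G, ∑ g : G, weight A H a x g * f g =
        (Nat.card (H a) : ℂ)⁻¹ * ∑ u : H a, f (a * u) := by
      intro x
      rw [← sum_coset_filter (H a) a f, Finset.mul_sum]
      refine Fintype.sum_equiv (MulAut.conj x).toEquiv _ _ fun g => ?_
      simp only [weight]
      by_cases h : ∃ u ∈ H a, x * g * x⁻¹ = a * u
      · have h' : ∃ u ∈ H a, (MulAut.conj x).toEquiv g = a * u := h
        rw [if_pos ⟨ha, h⟩, if_pos h']
        exact congrArg _ (hf g x).symm
      · have h' : ¬ ∃ u ∈ H a, (MulAut.conj x).toEquiv g = a * u := h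
        rw [if_neg (fun h' => h h'.2), if_neg h']
        simp
    simp only [h2, Finset.sum_const, Finset.card_univ, nsmul_eq_mul]
    rw [Nat.card_eq_fintype_card (α := G)]
  · rw [if_neg ha, mul_zero]
    refine Finset.sum_eq_zero fun x _ => Finset.sum_eq_zero fun g _ => ?_
    simp only [weight]
    rw [if_neg (fun h => ha h.1), zero_mul]

/-- A sum over the group of a function supported on a subgroup. -/
theorem sum_eq_sum_subgroup (K : Subgroup G) [Fintype K] (f : G → ℂ) (hf : ∀ a, a ∉ K → f a = 0) :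
    ∑ a : G, f a = ∑ a : K, f a := by
  classical
  rw [← Finset.sum_subtype (Finset.univ.filter (· ∈ K)) (by simp) f]
  symm
  apply Finset.sum_subset (Finset.subset_univ _)
  intro a _ ha
  exact hf a (by simpa using ha)

theorem finsum_mem_subgroup {M : Type*} [AddCommMonoid M] (K : Subgroup G) [Fintype K] (f : G → M) :
    ∑ᶠ u ∈ (K : Set G), f u = ∑ u : K, f u := by
  classical
  have : (K : Set G) = ↑(Finset.univ.filter (· ∈ K)) := by ext; simp
  rw [this, finsum_mem_coe_finset]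
  exact Finset.sum_subtype _ (by simp) _

theorem finsum_mem_eq_sum_ite {X M : Type*} [Fintype X] [AddCommMonoid M] (S : Set X)
    [DecidablePred (· ∈ S)] (f : X → M) :
    ∑ᶠ x ∈ S, f x = ∑ x, if x ∈ S then f x else 0 := by
  have : S = ↑(Finset.univ.filter (· ∈ S)) := by ext; simp
  conv_lhs => rw [this]
  rw [finsum_mem_coe_finset, Finset.sum_filter]

/-- The value of the Dade map on its support. -/
theorem dade_apply (hD : DadeHypothesis A L H) {α : L → ℂ} (hα : IsClassFunction L α)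
    {a u x g : G} (ha : a ∈ A) (hu : u ∈ H a) (hx : x * g * x⁻¹ = a * u) :
    dadeIsometry A L H α g = α ⟨a, hD.subset ha⟩ := by
  classical
  have h : ∃ a : ↥L, (a : G) ∈ A ∧ ∃ x : G, ∃ u ∈ H (a : G), x * g * x⁻¹ = (a : G) * u :=
    ⟨⟨a, hD.subset ha⟩, ha, x, u, hu, hx⟩
  simp only [dadeIsometry]
  rw [dif_pos h]
  obtain ⟨ha', x', u', hu', hx'⟩ := Classical.choose_spec h
  set a' := Classical.choose h with ha'def
  have h1 : (x' * x⁻¹) * (a * u) * (x' * x⁻¹)⁻¹ = (a' : G) * u' := by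
    rw [← hx, ← hx']
    group
  have h2 := DadeHypothesis.conj_eq hD ha ha' hu hu' h1
  obtain ⟨y, hy, hyx⟩ := hD.fusion a ha (x' * x⁻¹) (by rw [h2]; exact ha')
  rw [h2] at hyx
  have h3 : a' = ⟨y, hy⟩ * ⟨a, hD.subset ha⟩ * (⟨y, hy⟩ : L)⁻¹ := by
    apply Subtype.ext
    exact hyx.symm
  rw [h3]
  exact hα _ _

theorem dade_of_notMem {α : L → ℂ} {g : G} (hg : g ∉ dadeSupport A H) :
    dadeIsometry A L H α g = 0 := by
  simp only [dadeIsometry]
  rw [dif_neg]
  rintro ⟨a, ha, x, u, hu, hx⟩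
  exact hg ⟨a, ha, u, hu, x, hx⟩

theorem isClassFunction_dade (hD : DadeHypothesis A L H) {α : L → ℂ} (hα : IsClassFunction L α) :
    IsClassFunction G (dadeIsometry A L H α) := by
  intro g h
  by_cases hg : g ∈ dadeSupport A H
  · obtain ⟨a, ha, u, hu, x, hx⟩ := hg
    rw [dade_apply hD hα ha hu hx]
    refine dade_apply hD hα ha hu (x := x * h⁻¹) ?_
    rw [← hx]
    group
  · rw [dade_of_notMem hg, dade_of_notMem]
    rintro ⟨a, ha, u, hu, x, hx⟩
    refine hg ⟨a, ha, u, hu, x * h, ?_⟩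
    rw [← hx]
    group

/-- The pairing of the Dade image with a class function. -/
theorem classInner_dade [Fintype L] (hD : DadeHypothesis A L H) {α : L → ℂ}
    (hα : IsClassFunction L α) (hαA : ∀ x : L, (x : G) ∉ A → α x = 0) (χ : G → ℂ)
    (hχ : IsClassFunction G χ) (ψ : L → ℂ)
    (hψ : ∀ a : L, (a : G) ∈ A → ψ a = (Nat.card (H a) : ℂ)⁻¹ * ∑ᶠ u ∈ (H a : Set G), χ (a * u)) :
    classInner (dadeIsometry A L H α) χ = classInner α ψ := by
  classical
  letI : ∀ a, Fintype (H a) := fun a => Fintype.ofFinite _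
  set F : G → ℂ := fun g => dadeIsometry A L H α g * (starRingEnd ℂ) (χ g) with hF
  have hFc : IsClassFunction G F := by
    intro g h
    simp only [hF]
    rw [isClassFunction_dade hD hα g h, hχ g h]
  have h1 := dade_sum hD F hFc
  have h2 : ∑ g : G, (if g ∈ dadeSupport A H then F g else 0) = ∑ g : G, F g := by
    refine Finset.sum_congr rfl fun g _ => ?_
    by_cases hg : g ∈ dadeSupport A H
    · rw [if_pos hg]
    · rw [if_neg hg]
      simp only [hF]
      rw [dade_of_notMem hg, zero_mul]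
  rw [h2] at h1
  have h3 : ∀ a : G, (if a ∈ A then (Nat.card (H a) : ℂ)⁻¹ * ∑ u : H a, F (a * u) else 0) =
      if h : a ∈ L then α ⟨a, h⟩ * (starRingEnd ℂ) (ψ ⟨a, h⟩) else 0 := by
    intro a
    by_cases ha : a ∈ A
    · have haL : a ∈ L := hD.subset ha
      rw [if_pos ha, dif_pos haL]
      have h4 : ∀ u : H a, F (a * u) = α ⟨a, haL⟩ * (starRingEnd ℂ) (χ (a * u)) := by
        intro u
        simp only [hF]
        rw [dade_apply hD hα ha u.2 (x := 1) (by group)]
      simp only [h4]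
      rw [hψ ⟨a, haL⟩ ha, finsum_mem_subgroup, ← Finset.mul_sum, map_mul, map_inv₀, map_natCast,
        map_sum]
      ring
    · rw [if_neg ha]
      by_cases haL : a ∈ L
      · rw [dif_pos haL, hαA ⟨a, haL⟩ ha, zero_mul]
      · rw [dif_neg haL]
  simp only [h3] at h1
  rw [sum_eq_sum_subgroup L _ (fun a ha => dif_neg ha)] at h1
  have h5 : ∀ a : L, (if h : (a : G) ∈ L then α ⟨a, h⟩ * (starRingEnd ℂ) (ψ ⟨a, h⟩) else 0) =
      α a * (starRingEnd ℂ) (ψ a) := fun a => by rw [dif_pos a.2]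
  simp only [h5] at h1
  simp only [classInner]
  change (Nat.card G : ℂ)⁻¹ * ∑ g : G, F g = _
  have hG : (Nat.card G : ℂ) ≠ 0 := by exact_mod_cast Nat.card_pos.ne'
  have hL : (Nat.card L : ℂ) ≠ 0 := by exact_mod_cast Nat.card_pos.ne'
  field_simp
  linear_combination h1

/-- The Dade map is an isometry on class functions supported in `A`. -/
theorem classInner_dade_dade [Fintype L] (hD : DadeHypothesis A L H) {α : L → ℂ}
    (hα : IsClassFunction L α) (hαA : ∀ x : L, (x : G) ∉ A → α x = 0) {β : L → ℂ}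
    (hβ : IsClassFunction L β) :
    classInner (dadeIsometry A L H α) (dadeIsometry A L H β) = classInner α β := by
  classical
  letI : ∀ a, Fintype (H a) := fun a => Fintype.ofFinite _
  refine classInner_dade hD hα hαA _ (isClassFunction_dade hD hβ) β fun a ha => ?_
  have h1 : ∀ u : H a, dadeIsometry A L H β (a * u) = β a := by
    intro u
    exact dade_apply hD hβ ha u.2 (x := 1) (by group)
  rw [finsum_mem_subgroup]
  simp only [h1, Finset.sum_const, Finset.card_univ, nsmul_eq_mul]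
  rw [← Nat.card_eq_fintype_card]
  have hne : (Nat.card (H a) : ℂ) ≠ 0 := by exact_mod_cast Nat.card_pos.ne'
  field_simp

end Sum

end Cfsg.Agent.Lib.OddChar
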