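import Cfsg.Agent.Lib.OddChar.Table
import Cfsg.Agent.Lib.OddChar.Inner
import Cfsg.Agent.Lib.Char.Exceptional
import Cfsg.Agent.Lib.Char.Coset
import Cfsg.Agent.Lib.Char.Clifford

/-! # A semidirect product `L = K ⋊ W₁` with `C_K(x) = W₂` for all `1 ≠ x ∈ W₁`. -/

set_option autoImplicit false

namespace Cfsg.Agent.Lib.OddChar

open Cfsg Cfsg.Agent.Lib.Char
open scoped ComplexConjugate

/-- The configuration. -/
structure PLike {L : Type*} [Group L] (K W₁ W₂ : Subgroup L) : Prop where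
  normal : K.Normal
  inf : K ⊓ W₁ = ⊥
  sup : K ⊔ W₁ = ⊤
  ne₁ : W₁ ≠ ⊥
  cyc₁ : IsCyclic W₁
  hall : Nat.Coprime (Nat.card W₁) W₁.index
  ne₂ : W₂ ≠ ⊥
  cyc₂ : IsCyclic W₂
  le : W₂ ≤ K
  cent : ∀ x ∈ W₁, x ≠ 1 → K ⊓ Subgroup.centralizer ({x} : Set L) = W₂

namespace PLike

variable {L : Type*} [Group L] {K W₁ W₂ : Subgroup L}

theorem disj (h : PLike K W₁ W₂) : W₁ ⊓ W₂ = ⊥ := by
  rw [eq_bot_iff]
  intro a ha
  have : a ∈ K ⊓ W₁ := ⟨h.le ha.2, ha.1⟩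
  rwa [h.inf] at this

theorem comm (h : PLike K W₁ W₂) : ∀ a ∈ W₁, ∀ b ∈ W₂, a * b = b * a := by
  intro a ha b hb
  by_cases ha1 : a = 1
  · subst ha1; simp
  have hb' : b ∈ K ⊓ Subgroup.centralizer ({a} : Set L) := by
    rw [h.cent a ha ha1]; exact hb
  exact Subgroup.mem_centralizer_iff.mp hb'.2 a (by simp)

theorem decomp (h : PLike K W₁ W₂) (g : L) : ∃ k ∈ K, ∃ c ∈ W₁, k * c = g := by
  have hK := h.normal
  have : g ∈ K ⊔ W₁ := by rw [h.sup]; trivial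
  exact Subgroup.mem_sup_of_normal_left.mp this

theorem compl (h : PLike K W₁ W₂) : Subgroup.IsComplement' K W₁ := by
  refine Subgroup.isComplement'_of_disjoint_and_mul_eq_univ ?_ ?_
  · rw [disjoint_iff, h.inf]
  · ext g
    simp only [Set.mem_mul, Set.mem_univ, iff_true, SetLike.mem_coe]
    obtain ⟨k, hk, c, hc, e⟩ := h.decomp g
    exact ⟨k, hk, c, hc, e⟩

theorem index_K (h : PLike K W₁ W₂) : K.index = Nat.card W₁ := h.compl.symm.index_eq_card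

theorem card_eq (h : PLike K W₁ W₂) : Nat.card K * Nat.card W₁ = Nat.card L :=
  h.compl.card_mul_card

theorem coprime (h : PLike K W₁ W₂) : Nat.Coprime (Nat.card W₁) (Nat.card K) := by
  have := h.hall
  rwa [h.compl.index_eq_card] at this

theorem coprime₂ (h : PLike K W₁ W₂) : Nat.Coprime (Nat.card W₁) (Nat.card W₂) :=
  Nat.Coprime.coprime_dvd_right (Subgroup.card_dvd_of_le h.le) h.coprime

theorem comm₁ (h : PLike K W₁ W₂) : ∀ a ∈ W₁, ∀ b ∈ W₁, a * b = b * a := by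
  intro a ha b hb
  haveI := h.cyc₁
  letI := IsCyclic.commGroup (α := W₁)
  have := mul_comm (⟨a, ha⟩ : W₁) ⟨b, hb⟩
  exact congrArg Subtype.val this

theorem comm₂ (h : PLike K W₁ W₂) : ∀ a ∈ W₂, ∀ b ∈ W₂, a * b = b * a := by
  intro a ha b hb
  haveI := h.cyc₂
  letI := IsCyclic.commGroup (α := W₂)
  have := mul_comm (⟨a, ha⟩ : W₂) ⟨b, hb⟩
  exact congrArg Subtype.val this

/-- The part of an element of `W` in `W₂` is detected by `K`. -/
theorem mem_W₂_of_mem_K (h : PLike K W₁ W₂) {v : L} (hv : v ∈ W₁ ⊔ W₂) (hvK : v ∈ K) : v ∈ W₂ := by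
  obtain ⟨a, ha, b, hb, hab⟩ := W_decomp h.comm ⟨v, hv⟩
  simp only at hab
  have h1 : a ∈ K := by
    have : a = v * b⁻¹ := by rw [← hab]; group
    rw [this]
    exact K.mul_mem hvK (K.inv_mem (h.le hb))
  have h2 : a ∈ K ⊓ W₁ := ⟨h1, ha⟩
  rw [h.inf, Subgroup.mem_bot] at h2
  rw [← hab, h2, one_mul]
  exact hb

theorem notMem_K (h : PLike K W₁ W₂) {v : L} (hv : v ∈ W₁ ⊔ W₂) (hv2 : v ∉ W₂) : v ∉ K :=
  fun hvK => hv2 (h.mem_W₂_of_mem_K hv hvK)

/-- The T.I. property: `g` conjugating an element of `W \ W₂` into `W` lies in `W`. -/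
theorem mem_W_of_conj (h : PLike K W₁ W₂) [Finite L] {g v : L} (hv : v ∈ W₁ ⊔ W₂) (hv2 : v ∉ W₂)
    (hg : g * v * g⁻¹ ∈ W₁ ⊔ W₂) : g ∈ W₁ ⊔ W₂ := by
  classical
  have hK := h.normal
  have hcomm := h.comm
  have hW₁comm := h.comm₁
  obtain ⟨a, ha, b, hb, hab⟩ := W_decomp hcomm ⟨v, hv⟩
  obtain ⟨a', ha', b', hb', hab'⟩ := W_decomp hcomm ⟨g * v * g⁻¹, hg⟩
  simp only at hab hab'
  have ha1 : a ≠ 1 := by
    rintro rfl
    apply hv2
    rw [one_mul] at hab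
    rw [← hab]
    exact hb
  obtain ⟨k, hk, c, hc, hkc⟩ := h.decomp g
  have haa : a' = a := by
    have h1 : a⁻¹ * (g * a * g⁻¹) ∈ K := by
      have : a⁻¹ * (g * a * g⁻¹) = (a⁻¹ * k * a) * k⁻¹ := by
        rw [← hkc]
        have : c * a * c⁻¹ = a := by rw [hW₁comm c hc a ha]; group
        calc a⁻¹ * (k * c * a * (k * c)⁻¹) = a⁻¹ * (k * (c * a * c⁻¹) * k⁻¹) := by group
          _ = _ := by rw [this]; group
      rw [this]
      refine K.mul_mem ?_ (K.inv_mem hk)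
      have := hK.conj_mem k hk a⁻¹
      simpa using this
    have h2 : g * b * g⁻¹ ∈ K := hK.conj_mem b (h.le hb) g
    have h3 : a⁻¹ * a' ∈ K := by
      have e : a⁻¹ * a' = (a⁻¹ * (g * a * g⁻¹)) * (g * b * g⁻¹) * b'⁻¹ := by
        have : g * a * g⁻¹ * (g * b * g⁻¹) = a' * b' := by
          rw [hab', ← hab]; group
        calc a⁻¹ * a' = a⁻¹ * (a' * b') * b'⁻¹ := by group
          _ = _ := by rw [← this]; group
      rw [e]
      exact K.mul_mem (K.mul_mem h1 h2) (K.inv_mem (h.le hb'))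
    have h4 : a⁻¹ * a' ∈ K ⊓ W₁ := ⟨h3, W₁.mul_mem (W₁.inv_mem ha) ha'⟩
    rw [h.inf, Subgroup.mem_bot] at h4
    exact (inv_mul_eq_one.mp h4).symm
  subst haa
  have hcrt : ∃ n : ℕ, n ≡ 1 [MOD Nat.card W₁] ∧ n ≡ 0 [MOD Nat.card W₂] :=
    let z := Nat.chineseRemainder h.coprime₂ 1 0
    ⟨z, z.2.1, z.2.2⟩
  obtain ⟨n, hn1, hn2⟩ := hcrt
  have hpow1 : ∀ u ∈ W₁, u ^ n = u := by
    intro u hu
    have : (⟨u, hu⟩ : W₁) ^ n = ⟨u, hu⟩ := by
      have := pow_eq_pow_iff_modEq.mpr ((Nat.ModEq.of_dvd (orderOf_dvd_natCard (⟨u, hu⟩ : W₁)) hn1))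
      simpa using this
    exact congrArg Subtype.val this
  have hpow2 : ∀ u ∈ W₂, u ^ n = 1 := by
    intro u hu
    have : (⟨u, hu⟩ : W₂) ^ n = 1 := by
      have := pow_eq_pow_iff_modEq.mpr ((Nat.ModEq.of_dvd (orderOf_dvd_natCard (⟨u, hu⟩ : W₂)) hn2))
      simpa using this
    exact congrArg Subtype.val this
  have hfix : g * a' * g⁻¹ = a' := by
    have h1 : (a' * b) ^ n = a' := by
      rw [(show Commute a' b from hcomm a' ha b hb).mul_pow, hpow1 _ ha, hpow2 _ hb, mul_one]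
    have h2 : (a' * b') ^ n = a' := by
      rw [(show Commute a' b' from hcomm a' ha b' hb').mul_pow, hpow1 _ ha, hpow2 _ hb', mul_one]
    have h3 : (g * (a' * b) * g⁻¹) ^ n = g * (a' * b) ^ n * g⁻¹ := conj_pow
    rw [h1, hab, ← hab', h2] at h3
    exact h3.symm
  have hka : k * a' * k⁻¹ = a' := by
    have : c * a' * c⁻¹ = a' := by rw [hW₁comm c hc a' ha]; group
    rw [← hkc] at hfix
    calc k * a' * k⁻¹ = k * (c * a' * c⁻¹) * k⁻¹ := by rw [this]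
      _ = k * c * a' * (k * c)⁻¹ := by group
      _ = a' := hfix
  have hkW : k ∈ W₂ := by
    rw [← h.cent a' ha ha1]
    refine ⟨hk, Subgroup.mem_centralizer_iff.mpr ?_⟩
    intro y hy
    rw [Set.mem_singleton_iff] at hy
    subst hy
    exact (mul_inv_eq_iff_eq_mul.mp hka).symm
  rw [← hkc]
  exact Subgroup.mul_mem _ (le_sup_right (a := W₁) hkW) (le_sup_left (a := W₁) hc)

/-- The T.I. set `W \ W₂`. -/
def tiV (W₁ W₂ : Subgroup L) : Set L := (↑(W₁ ⊔ W₂) : Set L) \ ↑W₂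

theorem ti (h : PLike K W₁ W₂) [Finite L] :
    ∀ g : L, g ∉ W₁ ⊔ W₂ → ∀ t ∈ tiV W₁ W₂, g * t * g⁻¹ ∈ tiV W₁ W₂ → t = 1 := by
  intro g hg t ht hgt
  exact absurd (h.mem_W_of_conj ht.1 ht.2 hgt.1) hg

section Ind

variable [Fintype L] [Fintype ↥(W₁ ⊔ W₂)]

/-- A function on `W` vanishing on `W₂` vanishes off the T.I. set. -/
theorem off_tiV {α : ↥(W₁ ⊔ W₂) → ℂ} (hα : ∀ w : ↥(W₁ ⊔ W₂), (w : L) ∈ W₂ → α w = 0)
    (x : ↥(W₁ ⊔ W₂)) (hx : (x : L) ∉ tiV W₁ W₂) : α x = 0 := by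
  apply hα
  by_contra hcon
  exact hx ⟨x.2, hcon⟩

theorem isometry (h : PLike K W₁ W₂) (hWc : ∀ a b : ↥(W₁ ⊔ W₂), a * b = b * a)
    {α β : ↥(W₁ ⊔ W₂) → ℂ} (hα : ∀ w : ↥(W₁ ⊔ W₂), (w : L) ∈ W₂ → α w = 0)
    (hβ : ∀ w : ↥(W₁ ⊔ W₂), (w : L) ∈ W₂ → β w = 0) :
    classInner (indFun (W₁ ⊔ W₂) α) (indFun (W₁ ⊔ W₂) β) = classInner α β := by
  have hcl : IsClassFunction ↥(W₁ ⊔ W₂) β := by
    intro g x
    have : x * g * x⁻¹ = g := by rw [hWc x g, mul_inv_cancel_right]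
    rw [this]
  exact classInner_indFun_of_TI (W₁ ⊔ W₂) (tiV W₁ W₂) h.ti α β hcl (off_tiV hα) (off_tiV hβ)
    (hα 1 W₂.one_mem)

theorem ind_apply_tiV (h : PLike K W₁ W₂) (hWc : ∀ a b : ↥(W₁ ⊔ W₂), a * b = b * a)
    {α : ↥(W₁ ⊔ W₂) → ℂ} (hα : ∀ w : ↥(W₁ ⊔ W₂), (w : L) ∈ W₂ → α w = 0)
    (v : ↥(W₁ ⊔ W₂)) (hv : (v : L) ∉ W₂) : indFun (W₁ ⊔ W₂) α v = α v := by
  have hcl : IsClassFunction ↥(W₁ ⊔ W₂) α := by
    intro g x
    have : x * g * x⁻¹ = g := by rw [hWc x g, mul_inv_cancel_right]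
    rw [this]
  refine indFun_eq_of_TI (W₁ ⊔ W₂) (tiV W₁ W₂) h.ti α hcl (off_tiV hα) v ⟨v.2, hv⟩ ?_
  rintro rfl
  exact hv W₂.one_mem

theorem ind_apply_K (h : PLike K W₁ W₂) {α : ↥(W₁ ⊔ W₂) → ℂ}
    (hα : ∀ w : ↥(W₁ ⊔ W₂), (w : L) ∈ W₂ → α w = 0) {k : L} (hk : k ∈ K) :
    indFun (W₁ ⊔ W₂) α k = 0 := by
  classical
  have hK := h.normal
  rw [indFun_apply]
  refine mul_eq_zero_of_right _ (Finset.sum_eq_zero fun x _ => ?_)
  by_cases hm : x⁻¹ * k * x ∈ W₁ ⊔ W₂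
  · rw [extendByZero_of_mem _ _ hm]
    apply hα
    refine h.mem_W₂_of_mem_K hm ?_
    have := hK.conj_mem k hk x⁻¹
    simpa using this
  · exact extendByZero_of_notMem _ _ hm

end Ind

/-- The sum of a family of `[L:K]` distinct irreducible characters agreeing on `K` vanishes off `K`. -/
theorem sum_vanish_off [Fintype L] (K : Subgroup L) {ι : Type*} [Fintype ι] (μ : ι → L → ℂ)
    (hirr : ∀ i, IsIrrCharacter L (μ i)) (hinj : Function.Injective μ)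
    (hres : ∀ i j, ∀ k ∈ K, μ i k = μ j k) (hcard : Fintype.card ι = K.index) (g : L) (hg : g ∉ K) :
    ∑ i, μ i g = 0 := by
  classical
  set n := Fintype.card ι with hn
  have hn0 : 0 < n := by
    rw [hcard]
    exact Nat.pos_of_ne_zero Subgroup.index_ne_zero_of_finite
  haveI : Nonempty ι := Fintype.card_pos_iff.mp hn0
  obtain ⟨i₀⟩ := ‹Nonempty ι›
  set S : L → ℂ := ∑ i, μ i with hS
  have hSv : ∀ x, S x = ∑ i, μ i x := by
    intro x
    rw [hS, Finset.sum_apply]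
  -- the norm of `S`
  have hnorm : classInner S S = (n : ℂ) := by
    rw [hS, classInner_sum_left]
    simp only [classInner_sum_right]
    have : ∀ i j, classInner (μ i) (μ j) = if i = j then 1 else 0 := by
      intro i j
      split_ifs with hij
      · rw [hij]
        exact classInner_irr_self (hirr j)
      · exact classInner_irr_of_ne (hirr i) (hirr j) (fun e => hij (hinj e))
    simp only [this]
    simp [hn]
  letI : Fintype K := Fintype.ofFinite _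
  -- the norm of the restriction
  obtain ⟨m, hm⟩ := classInner_self_eq_nat (isCharacter_resFun K (IsIrrCharacter.isCharacter (hirr i₀)))
  have hm1 : 1 ≤ m := by
    rcases Nat.eq_zero_or_pos m with h0 | h0
    · exfalso
      rw [h0, classInner_self_eq_sum_normSq] at hm
      have h1 : (Nat.card K : ℝ)⁻¹ * ∑ k : K, ‖resFun K (μ i₀) k‖ ^ 2 = 0 := by
        exact_mod_cast hm
      have hpos : (0 : ℝ) < (Nat.card K : ℝ)⁻¹ := by
        have : 0 < Nat.card K := Nat.card_pos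
        positivity
      have h2 := (mul_eq_zero.mp h1).resolve_left hpos.ne'
      have h3 := (Finset.sum_eq_zero_iff_of_nonneg (fun k _ => by positivity)).mp h2 (1 : K) (Finset.mem_univ _)
      have h4 : resFun K (μ i₀) (1 : K) = μ i₀ 1 := by simp [resFun]
      rw [h4] at h3
      have := IsIrrCharacter.apply_one_ne_zero (hirr i₀)
      have h5 : ‖μ i₀ 1‖ = 0 := by simpa using h3
      exact this (norm_eq_zero.mp h5)
    · exact h0
  have hsumK : ∑ k : K, ‖resFun K (μ i₀) k‖ ^ 2 = (m : ℝ) * (Nat.card K : ℝ) := by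
    rw [classInner_self_eq_sum_normSq] at hm
    have h1 : (Nat.card K : ℝ)⁻¹ * ∑ k : K, ‖resFun K (μ i₀) k‖ ^ 2 = (m : ℝ) := by
      exact_mod_cast hm
    have hK0 : (Nat.card K : ℝ) ≠ 0 := by
      have : 0 < Nat.card K := Nat.card_pos
      positivity
    field_simp at h1
    linarith
  have hsumL : ∑ x : L, ‖S x‖ ^ 2 = (n : ℝ) * (Nat.card L : ℝ) := by
    rw [classInner_self_eq_sum_normSq] at hnorm
    have h1 : (Nat.card L : ℝ)⁻¹ * ∑ x : L, ‖S x‖ ^ 2 = (n : ℝ) := by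
      exact_mod_cast hnorm
    have hL0 : (Nat.card L : ℝ) ≠ 0 := by
      have : 0 < Nat.card L := Nat.card_pos
      positivity
    field_simp at h1
    linarith
  have hSK : ∀ k : K, ‖S k‖ ^ 2 = (n : ℝ) ^ 2 * ‖resFun K (μ i₀) k‖ ^ 2 := by
    intro k
    have h1 : S k = (n : ℂ) * μ i₀ k := by
      rw [hSv, Finset.sum_congr rfl (fun i _ => hres i i₀ k k.2)]
      simp [hn]
    rw [h1, norm_mul, mul_pow]
    simp [resFun]
  -- split the sum over `L`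
  have hsplit : ∑ x : L, ‖S x‖ ^ 2 = ∑ k : K, ‖S k‖ ^ 2 + ∑ x ∈ Finset.univ.filter (· ∉ K), ‖S x‖ ^ 2 := by
    rw [← Finset.sum_filter_add_sum_filter_not Finset.univ (· ∈ K)]
    congr 1
    exact Finset.sum_subtype (p := (· ∈ K)) _ (by simp) _
  have hcardL : (Nat.card L : ℝ) = (n : ℝ) * (Nat.card K : ℝ) := by
    have := Subgroup.index_mul_card K
    rw [← hcard] at this
    rw [← this]
    push_cast
    rfl
  have hrest : ∑ x ∈ Finset.univ.filter (· ∉ K), ‖S x‖ ^ 2 ≤ 0 := by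
    have h1 : ∑ k : K, ‖S k‖ ^ 2 = (n : ℝ) ^ 2 * ((m : ℝ) * (Nat.card K : ℝ)) := by
      simp only [hSK]
      rw [← Finset.mul_sum, hsumK]
    rw [hsumL, h1, hcardL] at hsplit
    have hmr : (1 : ℝ) ≤ m := by exact_mod_cast hm1
    have hKpos : (0 : ℝ) < (Nat.card K : ℝ) := by
      have : 0 < Nat.card K := Nat.card_pos
      exact_mod_cast this
    have hnpos : (0 : ℝ) < n := by exact_mod_cast hn0
    have h2 : (n : ℝ) * ((n : ℝ) * (Nat.card K : ℝ)) ≤ (n : ℝ) ^ 2 * ((m : ℝ) * (Nat.card K : ℝ)) := by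
      have : (n : ℝ) ^ 2 * (Nat.card K : ℝ) * 1 ≤ (n : ℝ) ^ 2 * (Nat.card K : ℝ) * m :=
        mul_le_mul_of_nonneg_left hmr (by positivity)
      nlinarith
    linarith
  have hzero := (Finset.sum_eq_zero_iff_of_nonneg (fun x _ => by positivity)).mp
    (le_antisymm hrest (Finset.sum_nonneg fun x _ => by positivity)) g
    (Finset.mem_filter.mpr ⟨Finset.mem_univ _, hg⟩)
  rw [← hSv]
  simpa using hzero

end PLike

end Cfsg.Agent.Lib.OddChar
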