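import Cfsg.Agent.Lib.OddChar.PLike

/-! # The exceptional characters of `L = K ⋊ W₁` attached to the cyclic group `W = W₁ × W₂`. -/

set_option autoImplicit false

namespace Cfsg.Agent.Lib.OddChar

open Cfsg Cfsg.Agent.Lib.Char
open scoped ComplexConjugate

namespace PLike

variable {L : Type*} [Group L] [Fintype L] {K W₁ W₂ : Subgroup L}

/-- The trivial row. -/
def rowOne (W₁ W₂ : Subgroup L) : RowT W₁ W₂ := ⟨1, fun _ _ => rfl⟩

/-- The function `(r - 1) c` on `W`. -/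
def alphaRC (r : RowT W₁ W₂) (c : ColT W₁ W₂) : ↥(W₁ ⊔ W₂) → ℂ :=
  fun w => (((r.1 * c.1) w : ℂˣ) : ℂ) - ((c.1 w : ℂˣ) : ℂ)

theorem alphaRC_vanish (r : RowT W₁ W₂) (c : ColT W₁ W₂) (w : ↥(W₁ ⊔ W₂)) (hw : (w : L) ∈ W₂) :
    alphaRC r c w = 0 := by
  simp only [alphaRC, MonoidHom.mul_apply, r.2 w hw, one_mul, sub_self]

theorem alphaRC_one (c : ColT W₁ W₂) : alphaRC (rowOne W₁ W₂) c = 0 := by
  funext w
  simp [alphaRC, rowOne]

variable [Fintype ↥(W₁ ⊔ W₂)]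

theorem classInner_alphaRC (hW : IsSelfNormalizingCyclic W₁ W₂) (c : ColT W₁ W₂)
    {r r' : RowT W₁ W₂} (hr : r ≠ rowOne W₁ W₂) (hr' : r' ≠ rowOne W₁ W₂) [Decidable (r = r')] :
    classInner (alphaRC r c) (alphaRC r' c) = if r = r' then 2 else 1 := by
  classical
  have h1 : alphaRC r c = (fun w => (((r.1 * c.1) w : ℂˣ) : ℂ)) - fun w => ((c.1 w : ℂˣ) : ℂ) := rfl
  have h2 : alphaRC r' c = (fun w => (((r'.1 * c.1) w : ℂˣ) : ℂ)) - fun w => ((c.1 w : ℂˣ) : ℂ) := rfl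
  rw [h1, h2, classInner_sub_left, classInner_sub_right, classInner_sub_right, classInner_hom,
    classInner_hom, classInner_hom, classInner_hom]
  have a1 : (r.1 * c.1 = r'.1 * c.1) ↔ r = r' :=
    ⟨fun e => Subtype.ext (mul_right_cancel e), fun e => by rw [e]⟩
  have hcancel : ∀ r₀ : RowT W₁ W₂, r₀.1 * c.1 = c.1 → r₀ = rowOne W₁ W₂ := by
    intro r₀ e
    apply Subtype.ext
    ext w
    have h3 := congrArg (fun f => f w) e
    simp only [MonoidHom.mul_apply] at h3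
    have h4 : r₀.1 w = 1 := mul_eq_right.mp h3
    rw [h4]
    simp [rowOne]
  have a2 : ¬ (r.1 * c.1 = c.1) := fun e => hr (hcancel r e)
  have a3 : ¬ (c.1 = r'.1 * c.1) := fun e => hr' (hcancel r' e.symm)
  simp only [a1, a2, a3, if_false, if_true]
  split_ifs <;> norm_num

theorem isGeneralized_ind_alphaRC (r : RowT W₁ W₂) (c : ColT W₁ W₂) :
    IsGeneralizedCharacter L (indFun (W₁ ⊔ W₂) (alphaRC r c)) := by
  have h1 : alphaRC r c = (fun w => (((r.1 * c.1) w : ℂˣ) : ℂ)) - fun w => ((c.1 w : ℂˣ) : ℂ) := rfl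
  rw [h1, indFun_sub]
  exact ⟨_, _, isCharacter_indFun _ (IsIrrCharacter.isCharacter (isIrrCharacter_of_monoidHom _)),
    isCharacter_indFun _ (IsIrrCharacter.isCharacter (isIrrCharacter_of_monoidHom _)), rfl⟩

/-- The family of exceptional characters in a column. -/
theorem exists_family (h : PLike K W₁ W₂) (hW : IsSelfNormalizingCyclic W₁ W₂) (c : ColT W₁ W₂) :
    ∃ ε : ℂ, (ε = 1 ∨ ε = -1) ∧ ∃ μ : RowT W₁ W₂ → L → ℂ, (∀ r, IsIrrCharacter L (μ r)) ∧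
      Function.Injective μ ∧ ∀ r, indFun (W₁ ⊔ W₂) (alphaRC r c) = ε • (μ r - μ (rowOne W₁ W₂)) := by
  classical
  haveI := finite_rowT hW
  let e : RowT W₁ W₂ ≃ Fin (Nat.card (RowT W₁ W₂)) := Finite.equivFin _
  let i₀ := e (rowOne W₁ W₂)
  let τ : Fin (Nat.card (RowT W₁ W₂)) → L → ℂ := fun i => indFun (W₁ ⊔ W₂) (alphaRC (e.symm i) c)
  have hWc := W_comm_of_cyclic hW
  have h0 : τ i₀ = 0 := by
    simp only [τ, i₀, Equiv.symm_apply_apply, alphaRC_one]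
    exact indFun_zero _
  have hgen : ∀ i, IsGeneralizedCharacter L (τ i) := fun i => isGeneralized_ind_alphaRC _ c
  have hone : ∀ i, τ i 1 = 0 := fun i => h.ind_apply_K (alphaRC_vanish _ c) K.one_mem
  have hgram : ∀ i j, i ≠ i₀ → j ≠ i₀ → classInner (τ i) (τ j) = if i = j then 2 else 1 := by
    intro i j hi hj
    simp only [τ]
    rw [h.isometry hWc (alphaRC_vanish _ c) (alphaRC_vanish _ c)]
    have hi' : e.symm i ≠ rowOne W₁ W₂ := fun h' => hi (e.symm_apply_eq.mp h')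
    have hj' : e.symm j ≠ rowOne W₁ W₂ := fun h' => hj (e.symm_apply_eq.mp h')
    rw [classInner_alphaRC hW c hi' hj']
    simp only [e.symm.injective.eq_iff]
  obtain ⟨ε, hε, μ, hirr, hinj, hτ⟩ := exists_irr_of_gram i₀ τ h0 hgen hone hgram
  refine ⟨ε, hε, fun r => μ (e r), fun r => hirr _, fun a b hab => e.injective (hinj hab), ?_⟩
  intro r
  have := hτ (e r)
  simp only [τ, Equiv.symm_apply_apply] at this
  exact this

/-- Column orthogonality for the rows. -/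
theorem sum_rowT (hW : IsSelfNormalizingCyclic W₁ W₂) [Fintype (RowT W₁ W₂)] (v : ↥(W₁ ⊔ W₂))
    (hv : (v : L) ∉ W₂) : ∑ r : RowT W₁ W₂, ((r.1 v : ℂˣ) : ℂ) = 0 := by
  classical
  letI : Fintype {φ : ↥(W₁ ⊔ W₂) →* ℂˣ // ∀ k ∈ W₂.subgroupOf (W₁ ⊔ W₂), φ k = 1} :=
    ‹Fintype (RowT W₁ W₂)›
  have := sum_triv (W_comm_of_cyclic hW) (W₂.subgroupOf (W₁ ⊔ W₂)) v
  rw [if_neg (fun h => hv (Subgroup.mem_subgroupOf.mp h))] at this
  exact this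

theorem sum_rowT_mem (hW : IsSelfNormalizingCyclic W₁ W₂) [Fintype (RowT W₁ W₂)] (v : ↥(W₁ ⊔ W₂))
    (hv : (v : L) ∈ W₂) : ∑ r : RowT W₁ W₂, ((r.1 v : ℂˣ) : ℂ) = (Nat.card W₁ : ℂ) := by
  have h1 : ∀ r : RowT W₁ W₂, ((r.1 v : ℂˣ) : ℂ) = 1 := fun r => by rw [r.2 v hv]; simp
  simp only [h1, Finset.sum_const, Finset.card_univ, nsmul_eq_mul, mul_one]
  rw [← Nat.card_eq_fintype_card, card_rowT hW]

theorem sum_colT (hW : IsSelfNormalizingCyclic W₁ W₂) [Fintype (ColT W₁ W₂)] (v : ↥(W₁ ⊔ W₂))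
    (hv : (v : L) ∉ W₁) : ∑ c : ColT W₁ W₂, ((c.1 v : ℂˣ) : ℂ) = 0 := by
  classical
  letI : Fintype {φ : ↥(W₁ ⊔ W₂) →* ℂˣ // ∀ k ∈ W₁.subgroupOf (W₁ ⊔ W₂), φ k = 1} :=
    ‹Fintype (ColT W₁ W₂)›
  have := sum_triv (W_comm_of_cyclic hW) (W₁.subgroupOf (W₁ ⊔ W₂)) v
  rw [if_neg (fun h => hv (Subgroup.mem_subgroupOf.mp h))] at this
  exact this

theorem sum_colT_mem (hW : IsSelfNormalizingCyclic W₁ W₂) [Fintype (ColT W₁ W₂)] (v : ↥(W₁ ⊔ W₂))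
    (hv : (v : L) ∈ W₁) : ∑ c : ColT W₁ W₂, ((c.1 v : ℂˣ) : ℂ) = (Nat.card W₂ : ℂ) := by
  have h1 : ∀ c : ColT W₁ W₂, ((c.1 v : ℂˣ) : ℂ) = 1 := fun c => by rw [c.2 v hv]; simp
  simp only [h1, Finset.sum_const, Finset.card_univ, nsmul_eq_mul, mul_one]
  rw [← Nat.card_eq_fintype_card, card_colT hW]

/-- The values of the exceptional characters off `W₂`. -/
theorem family_values (h : PLike K W₁ W₂) (hW : IsSelfNormalizingCyclic W₁ W₂) (c : ColT W₁ W₂)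
    {ε : ℂ} (hε : ε = 1 ∨ ε = -1) {μ : RowT W₁ W₂ → L → ℂ} (hirr : ∀ r, IsIrrCharacter L (μ r))
    (hinj : Function.Injective μ)
    (hτ : ∀ r, indFun (W₁ ⊔ W₂) (alphaRC r c) = ε • (μ r - μ (rowOne W₁ W₂)))
    (r : RowT W₁ W₂) (v : ↥(W₁ ⊔ W₂)) (hv : (v : L) ∉ W₂) :
    μ r v = ε * (((r.1 * c.1) v : ℂˣ) : ℂ) := by
  classical
  haveI := finite_rowT hW
  letI : Fintype (RowT W₁ W₂) := Fintype.ofFinite _
  have hWc := W_comm_of_cyclic hW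
  have hεε : ε * ε = 1 := by
    rcases hε with e | e <;> rw [e] <;> norm_num
  have hε0 : ε ≠ 0 := by
    rcases hε with e | e <;> rw [e] <;> norm_num
  -- agreement on `K`
  have hres : ∀ r r' : RowT W₁ W₂, ∀ k ∈ K, μ r k = μ r' k := by
    have h1 : ∀ r : RowT W₁ W₂, ∀ k ∈ K, μ r k = μ (rowOne W₁ W₂) k := by
      intro r k hk
      have h2 := h.ind_apply_K (alphaRC_vanish r c) hk
      rw [hτ r] at h2
      simp only [Pi.smul_apply, Pi.sub_apply, smul_eq_mul] at h2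
      have h3 := (mul_eq_zero.mp h2).resolve_left hε0
      exact sub_eq_zero.mp h3
    intro r r' k hk
    rw [h1 r k hk, h1 r' k hk]
  have hcard : Fintype.card (RowT W₁ W₂) = K.index := by
    rw [← Nat.card_eq_fintype_card, card_rowT hW, h.index_K]
  have hvK : (v : L) ∉ K := h.notMem_K v.2 hv
  have hsum := sum_vanish_off K μ hirr hinj hres hcard v hvK
  -- the value of the difference
  have hdiff : ∀ r : RowT W₁ W₂, ε * (μ r v - μ (rowOne W₁ W₂) v) =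
      ((r.1 v : ℂˣ) : ℂ) * ((c.1 v : ℂˣ) : ℂ) - ((c.1 v : ℂˣ) : ℂ) := by
    intro r
    have h1 := h.ind_apply_tiV hWc (alphaRC_vanish r c) v hv
    rw [hτ r] at h1
    simp only [Pi.smul_apply, Pi.sub_apply, smul_eq_mul] at h1
    rw [h1]
    simp [alphaRC]
  have hsum2 : ε * (∑ r : RowT W₁ W₂, μ r v - (Fintype.card (RowT W₁ W₂) : ℂ) * μ (rowOne W₁ W₂) v) =
      (∑ r : RowT W₁ W₂, ((r.1 v : ℂˣ) : ℂ)) * ((c.1 v : ℂˣ) : ℂ) -
        (Fintype.card (RowT W₁ W₂) : ℂ) * ((c.1 v : ℂˣ) : ℂ) := by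
    have h1 := Finset.sum_congr rfl (fun r (_ : r ∈ (Finset.univ : Finset (RowT W₁ W₂))) => hdiff r)
    rw [← Finset.mul_sum, Finset.sum_sub_distrib, Finset.sum_sub_distrib, ← Finset.sum_mul] at h1
    simpa using h1
  rw [hsum, sum_rowT hW v hv, zero_mul, zero_sub, zero_sub] at hsum2
  have hn0 : (Fintype.card (RowT W₁ W₂) : ℂ) ≠ 0 := by
    have : Fintype.card (RowT W₁ W₂) ≠ 0 := by
      rw [hcard]
      exact Subgroup.index_ne_zero_of_finite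
    exact_mod_cast this
  have h1 : ε * μ (rowOne W₁ W₂) v = ((c.1 v : ℂˣ) : ℂ) := by
    apply mul_left_cancel₀ hn0
    linear_combination -hsum2
  have h2 := hdiff r
  have h3 : ε * μ r v = ((r.1 v : ℂˣ) : ℂ) * ((c.1 v : ℂˣ) : ℂ) := by
    linear_combination h2 + h1
  calc μ r v = ε * (ε * μ r v) := by linear_combination -(μ r v) * hεε
    _ = _ := by rw [h3]; simp

/-- A function on `W` orthogonal to all the `(r - 1) c` vanishes off `W₂`. -/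
theorem eq_zero_of_orthogonal_alphaRC (hW : IsSelfNormalizingCyclic W₁ W₂) (f : ↥(W₁ ⊔ W₂) → ℂ)
    (hf : ∀ (r : RowT W₁ W₂) (c : ColT W₁ W₂), classInner (alphaRC r c) f = 0)
    (v : ↥(W₁ ⊔ W₂)) (hv : (v : L) ∉ W₂) : f v = 0 := by
  classical
  haveI := finite_rowT hW
  haveI := finite_colT hW
  letI : Fintype (RowT W₁ W₂) := Fintype.ofFinite _
  letI : Fintype (ColT W₁ W₂) := Fintype.ofFinite _
  have hvi : (v⁻¹ : ↥(W₁ ⊔ W₂)).1 ∉ W₂ := fun h => hv (by simpa using W₂.inv_mem h)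
  let F : ↥(W₁ ⊔ W₂) → ℂ := fun u =>
    ∑ r : RowT W₁ W₂, ∑ c : ColT W₁ W₂, ((r.1 v⁻¹ : ℂˣ) : ℂ) * ((c.1 v⁻¹ : ℂˣ) : ℂ) * alphaRC r c u
  have hzero : ∑ u : ↥(W₁ ⊔ W₂), F u * conj (f u) = 0 := by
    simp only [F, Finset.sum_mul]
    rw [Finset.sum_comm]
    refine Finset.sum_eq_zero fun r _ => ?_
    rw [Finset.sum_comm]
    refine Finset.sum_eq_zero fun c _ => ?_
    have h1 := hf r c
    simp only [classInner] at h1
    have hW0 : ((Nat.card ↥(W₁ ⊔ W₂) : ℕ) : ℂ)⁻¹ ≠ 0 :=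
      inv_ne_zero (by exact_mod_cast Nat.card_pos.ne')
    have h2 := (mul_eq_zero.mp h1).resolve_left hW0
    have h3 : ∀ u : ↥(W₁ ⊔ W₂), ((r.1 v⁻¹ : ℂˣ) : ℂ) * ((c.1 v⁻¹ : ℂˣ) : ℂ) * alphaRC r c u * conj (f u) =
        ((r.1 v⁻¹ : ℂˣ) : ℂ) * ((c.1 v⁻¹ : ℂˣ) : ℂ) * (alphaRC r c u * conj (f u)) := by
      intro u
      ring
    simp only [h3]
    rw [← Finset.mul_sum, h2, mul_zero]
  have hF : ∀ u, F u = (∑ r : RowT W₁ W₂, ((r.1 (v⁻¹ * u) : ℂˣ) : ℂ)) *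
      (∑ c : ColT W₁ W₂, ((c.1 (v⁻¹ * u) : ℂˣ) : ℂ)) := by
    intro u
    have h1 : ∀ (r : RowT W₁ W₂) (c : ColT W₁ W₂),
        ((r.1 v⁻¹ : ℂˣ) : ℂ) * ((c.1 v⁻¹ : ℂˣ) : ℂ) * alphaRC r c u =
        (((r.1 (v⁻¹ * u) : ℂˣ) : ℂ) - ((r.1 v⁻¹ : ℂˣ) : ℂ)) * ((c.1 (v⁻¹ * u) : ℂˣ) : ℂ) := by
      intro r c
      simp only [alphaRC, map_mul, Units.val_mul, MonoidHom.mul_apply]
      ring
    simp only [F, h1]
    rw [← Finset.sum_mul_sum, Finset.sum_sub_distrib, sum_rowT hW v⁻¹ hvi, sub_zero]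
  have hsingle : ∑ u : ↥(W₁ ⊔ W₂), F u * conj (f u) = F v * conj (f v) := by
    refine Finset.sum_eq_single v (fun u _ hu => ?_) (fun h => absurd (Finset.mem_univ _) h)
    rw [hF]
    by_cases h1 : ((v⁻¹ * u : ↥(W₁ ⊔ W₂)) : L) ∈ W₂
    · by_cases h2 : ((v⁻¹ * u : ↥(W₁ ⊔ W₂)) : L) ∈ W₁
      · exfalso
        apply hu
        have h3 : ((v⁻¹ * u : ↥(W₁ ⊔ W₂)) : L) ∈ W₁ ⊓ W₂ := ⟨h2, h1⟩
        rw [hW.2.2.1] at h3
        have h4 : v⁻¹ * u = 1 := Subtype.ext (by simpa using h3)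
        exact (inv_mul_eq_one.mp h4).symm
      · rw [sum_colT hW _ h2]
        simp
    · rw [sum_rowT hW _ h1]
      simp
  rw [hsingle, hF] at hzero
  have h5 : v⁻¹ * v = 1 := by group
  rw [h5, sum_rowT_mem hW 1 W₂.one_mem, sum_colT_mem hW 1 W₁.one_mem] at hzero
  have hi₁ : (Nat.card W₁ : ℂ) ≠ 0 := by exact_mod_cast Nat.card_pos.ne'
  have hi₂ : (Nat.card W₂ : ℂ) ≠ 0 := by exact_mod_cast Nat.card_pos.ne'
  have h6 := (mul_eq_zero.mp hzero).resolve_left (mul_ne_zero hi₁ hi₂)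
  simpa using h6

end PLike

end Cfsg.Agent.Lib.OddChar
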