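import Cfsg.Agent.S1496
import Cfsg.Agent.S1512
import Cfsg.Agent.Lib.Char.BrauerPerm

/-! # Fixed classes of a coprime automorphism of a normal subgroup with abelian fixed points. -/

set_option autoImplicit false

namespace Cfsg.Agent.Lib.OddChar

open Cfsg Cfsg.Agent.Lib.Char

variable {L : Type*} [Group L] [Finite L]

/-- The number of conjugacy classes of `K` fixed by `x` is `|C_K(x)|` when this centraliser is
abelian and the same for all non-trivial powers of `x`. -/
theorem card_fixed_classes_eq (K W₂ : Subgroup L) [hK : K.Normal] (x : L) (hx1 : x ≠ 1)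
    (hx : Nat.Coprime (orderOf x) (Nat.card K))
    (hC : ∀ y ∈ Subgroup.zpowers x, y ≠ 1 → K ⊓ Subgroup.centralizer ({y} : Set L) = W₂)
    (hab : ∀ a ∈ W₂, ∀ b ∈ W₂, a * b = b * a) :
    Nat.card {C : ConjClasses K //
      ConjClasses.map (MulEquiv.toMonoidHom ((MulAut.conjNormal x : MulAut K))) C = C} = Nat.card W₂ := by
  classical
  have hxz : x ∈ Subgroup.zpowers x := Subgroup.mem_zpowers x
  have hW := hC x hxz hx1
  have hW₂K : W₂ ≤ K := by
    rw [← hW]; exact inf_le_left
  have hcent : ∀ w ∈ W₂, x * w = w * x := by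
    intro w hw
    have hw' : w ∈ K ⊓ Subgroup.centralizer ({x} : Set L) := by rw [hW]; exact hw
    exact Subgroup.mem_centralizer_iff.mp hw'.2 x (by simp)
  have hφ : ∀ k : K, ((MulEquiv.toMonoidHom ((MulAut.conjNormal x : MulAut K))) k : L) = x * k * x⁻¹ := by
    intro k
    simp
  have hmk : ∀ k : K, ConjClasses.map (MulEquiv.toMonoidHom ((MulAut.conjNormal x : MulAut K))) (ConjClasses.mk k) =
      ConjClasses.mk ((MulEquiv.toMonoidHom ((MulAut.conjNormal x : MulAut K))) k) := fun k => rfl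
  let F : W₂ → {C : ConjClasses K // ConjClasses.map (MulEquiv.toMonoidHom ((MulAut.conjNormal x : MulAut K))) C = C} :=
    fun w => ⟨ConjClasses.mk ⟨w, hW₂K w.2⟩, by
      rw [hmk]
      congr 1
      apply Subtype.ext
      rw [hφ]
      simp only
      rw [hcent w w.2]
      group⟩
  have hFinj : Function.Injective F := by
    rintro ⟨w, hw⟩ ⟨w', hw'⟩ he
    have he' : (ConjClasses.mk (⟨w, hW₂K hw⟩ : K)) = ConjClasses.mk (⟨w', hW₂K hw'⟩ : K) :=
      congrArg Subtype.val he
    rw [ConjClasses.mk_eq_mk_iff_isConj, isConj_iff] at he'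
    obtain ⟨k, hk⟩ := he'
    have hk' : (k : L) * w * (k : L)⁻¹ = w' := congrArg Subtype.val hk
    -- the centraliser of `w` in `K`
    let C : Subgroup L := K ⊓ Subgroup.centralizer ({w} : Set L)
    have hCmem : ∀ z, z ∈ C ↔ z ∈ K ∧ z * w = w * z := by
      intro z
      simp only [C, Subgroup.mem_inf, Subgroup.mem_centralizer_singleton_iff]
    have hCle : C ≤ K := inf_le_left
    have hnorm : x ∈ Subgroup.normalizer (C : Set L) := by
      rw [Subgroup.mem_normalizer_iff]
      intro n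
      have hxw : x⁻¹ * w * x = w := by
        rw [mul_assoc, ← hcent w hw]
        group
      have hxw' : x * w * x⁻¹ = w := by
        rw [hcent w hw]
        group
      constructor
      · intro hn
        obtain ⟨h1, h2⟩ := (hCmem n).mp hn
        refine (hCmem _).mpr ⟨hK.conj_mem n h1 x, ?_⟩
        calc x * n * x⁻¹ * w = x * (n * (x⁻¹ * w * x)) * x⁻¹ := by group
          _ = x * (w * n) * x⁻¹ := by rw [hxw, h2]
          _ = (x * w * x⁻¹) * (x * n * x⁻¹) := by group
          _ = w * (x * n * x⁻¹) := by rw [hxw']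
      · intro hn
        obtain ⟨h1, h2⟩ := (hCmem _).mp hn
        refine (hCmem _).mpr ⟨?_, ?_⟩
        · have := hK.conj_mem _ h1 x⁻¹
          simpa [mul_assoc] using this
        · calc n * w = x⁻¹ * (x * n * x⁻¹ * (x * w * x⁻¹)) * x := by group
            _ = x⁻¹ * (x * n * x⁻¹ * w) * x := by rw [hxw']
            _ = x⁻¹ * (w * (x * n * x⁻¹)) * x := by rw [h2]
            _ = (x⁻¹ * w * x) * n := by group
            _ = w * n := by rw [hxw]
    have hcop : Nat.Coprime (orderOf x) (Nat.card C) :=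
      Nat.Coprime.coprime_dvd_right (Subgroup.card_dvd_of_le hCle) hx
    let h₀ : L := (k : L)⁻¹ * (x * k * x⁻¹)
    have hh₀ : h₀ ∈ C := by
      refine (hCmem _).mpr ⟨K.mul_mem (K.inv_mem k.2) (hK.conj_mem _ k.2 x), ?_⟩
      have hxw' : x * w' * x⁻¹ = w' := by
        rw [hcent w' hw']
        group
      have hxw : x * w * x⁻¹ = w := by
        rw [hcent w hw]
        group
      have h1 : (x * k * x⁻¹) * w = w' * (x * k * x⁻¹) := by
        calc (x * k * x⁻¹) * w = x * k * x⁻¹ * (x * w * x⁻¹) := by rw [hxw]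
          _ = x * ((k : L) * w * (k : L)⁻¹) * x⁻¹ * (x * k * x⁻¹) := by group
          _ = x * w' * x⁻¹ * (x * k * x⁻¹) := by rw [hk']
          _ = w' * (x * k * x⁻¹) := by rw [hxw']
      calc h₀ * w = (k : L)⁻¹ * ((x * k * x⁻¹) * w) := by simp only [h₀]; group
        _ = (k : L)⁻¹ * (w' * (x * k * x⁻¹)) := by rw [h1]
        _ = (k : L)⁻¹ * (((k : L) * w * (k : L)⁻¹) * (x * k * x⁻¹)) := by rw [hk']
        _ = w * h₀ := by simp only [h₀]; group
    obtain ⟨t, ht, c, hc, hcx, hconj⟩ := Cfsg.Agent.S1496.result C x hnorm hcop h₀ hh₀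
    have hconj' : t * ((k : L)⁻¹ * x * k) * t⁻¹ = c * x := by
      rw [← hconj]
      simp only [h₀]
      group
    obtain ⟨b, hb1, hb0⟩ := Nat.chineseRemainder hx 1 0
    have hcK := hCle hc
    have hpow : (c * x) ^ b = x := by
      rw [(show Commute c x from hcx).mul_pow]
      have h1 : c ^ b = 1 := orderOf_dvd_iff_pow_eq_one.mp
        ((Subgroup.orderOf_dvd_natCard K hcK).trans ((Nat.modEq_zero_iff_dvd).mp hb0))
      have h2 : x ^ b = x ^ 1 := pow_eq_pow_iff_modEq.mpr hb1
      rw [h1, h2, one_mul, pow_one]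
    have hxeq : t * ((k : L)⁻¹ * x * k) * t⁻¹ = x := by
      have h1 := congrArg (· ^ b) hconj'
      simp only [hpow] at h1
      have h2 : (t * ((k : L)⁻¹ * x * k) * t⁻¹) ^ b = t * ((k : L)⁻¹ * x ^ b * k) * t⁻¹ := by
        have h3 : (t * ((k : L)⁻¹ * x * k) * t⁻¹) = (t * (k : L)⁻¹) * x * (t * (k : L)⁻¹)⁻¹ := by group
        rw [h3, conj_pow]
        group
      rw [h2] at h1
      have h4 : x ^ b = x ^ 1 := pow_eq_pow_iff_modEq.mpr hb1
      rw [h4, pow_one] at h1
      exact h1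
    -- `k₀ = k t⁻¹` lies in `W₂`
    have htK := hCle ht
    have hk₀ : (k : L) * t⁻¹ ∈ W₂ := by
      rw [← hW]
      refine ⟨K.mul_mem k.2 (K.inv_mem htK), Subgroup.mem_centralizer_singleton_iff.mpr ?_⟩
      calc (k : L) * t⁻¹ * x = (k : L) * t⁻¹ * (t * ((k : L)⁻¹ * x * k) * t⁻¹) := by rw [hxeq]
        _ = x * ((k : L) * t⁻¹) := by group
    have htw : t * w = w * t := ((hCmem t).mp ht).2
    have htw' : t * w * t⁻¹ = w := by
      rw [htw]
      group
    have hfin : w' = w := by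
      rw [← hk']
      calc (k : L) * w * (k : L)⁻¹ = ((k : L) * t⁻¹) * (t * w * t⁻¹) * ((k : L) * t⁻¹)⁻¹ := by group
        _ = ((k : L) * t⁻¹) * w * ((k : L) * t⁻¹)⁻¹ := by rw [htw']
        _ = w * ((k : L) * t⁻¹) * ((k : L) * t⁻¹)⁻¹ := by rw [hab _ hk₀ w hw]
        _ = w := by group
    exact Subtype.ext hfin.symm
  exact le_antisymm (Cfsg.Agent.S1512.result K W₂ x hx1 hx hC) (Nat.card_le_card_of_injective F hFinj)

/-- The number of irreducible characters of `K` fixed by `x`. -/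
theorem card_fixed_irr_eq (K W₂ : Subgroup L) [hK : K.Normal] (x : L) (hx1 : x ≠ 1)
    (hx : Nat.Coprime (orderOf x) (Nat.card K))
    (hC : ∀ y ∈ Subgroup.zpowers x, y ≠ 1 → K ⊓ Subgroup.centralizer ({y} : Set L) = W₂)
    (hab : ∀ a ∈ W₂, ∀ b ∈ W₂, a * b = b * a) :
    Nat.card {χ : IrrCharacter K // (χ : K → ℂ) ∘ (MulAut.conjNormal x : MulAut K) = (χ : K → ℂ)} =
      Nat.card W₂ := by
  rw [← card_fixed_classes_eq K W₂ x hx1 hx hC hab]
  exact (card_fixed_conjClasses_eq_card_fixed_irr (MulAut.conjNormal x : K ≃* K)).symm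

end Cfsg.Agent.Lib.OddChar
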