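import Cfsg.Agent.Lib.OddChar.Table
import Cfsg.Agent.Lib.OddChar.Inner
import Cfsg.Agent.Lib.Char.Galois

/-! # Galois action on a cyclic T.I. family: `χ_ω (x ^ k) = χ_{ω ^ k} x`. -/

set_option autoImplicit false

namespace Cfsg.Agent.Lib.OddChar

open Cfsg Cfsg.Agent.Lib.Char
open scoped ComplexConjugate

section Combinatorics

variable {R C : Type*} [Fintype R] [Fintype C]

theorem table_zero [DecidableEq R] [DecidableEq C] (a : R → C → ℂ) (hR : 3 ≤ Fintype.card R)
    (hm : Fintype.card R + 2 ≤ Fintype.card C)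
    (hrect : ∀ r r' c c', a r c + a r' c' = a r c' + a r' c) {p q : R × C}
    (hpq : ∀ x : R × C, a x.1 x.2 ≠ 0 → x = p ∨ x = q) : ∀ r c, a r c = 0 := by
  classical
  have hsub : (Finset.univ : Finset (R × C)).filter (fun x => a x.1 x.2 ≠ 0) ⊆ {p, q} := by
    intro x hx
    simp only [Finset.mem_filter, Finset.mem_univ, true_and] at hx
    simpa using hpq x hx
  have hcard : ((Finset.univ : Finset (R × C)).filter (fun x => a x.1 x.2 ≠ 0)).card ≤ 2 :=
    (Finset.card_le_card hsub).trans Finset.card_le_two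
  have hfew : ((Finset.univ : Finset (R × C)).filter (fun x => a x.1 x.2 ≠ 0)).card <
      2 * Fintype.card R := by omega
  rcases table_trichotomy a hm hrect hfew with ⟨c₀, d, h⟩ | ⟨r₀, d, h⟩
  · by_cases hd : d = 0
    · intro r c
      rw [h, hd]
      simp
    · exfalso
      have himg : (Finset.univ.image (fun r : R => (r, c₀))) ⊆
          (Finset.univ : Finset (R × C)).filter (fun x => a x.1 x.2 ≠ 0) := by
        intro x hx
        obtain ⟨r, -, rfl⟩ := Finset.mem_image.mp hx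
        simp only [Finset.mem_filter, Finset.mem_univ, true_and]
        rw [h, if_pos rfl]
        exact hd
      have h1 := Finset.card_le_card himg
      rw [Finset.card_image_of_injective _ (fun r r' e => (Prod.ext_iff.mp e).1), Finset.card_univ] at h1
      omega
  · by_cases hd : d = 0
    · intro r c
      rw [h, hd]
      simp
    · exfalso
      have himg : (Finset.univ.image (fun c : C => (r₀, c))) ⊆
          (Finset.univ : Finset (R × C)).filter (fun x => a x.1 x.2 ≠ 0) := by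
        intro x hx
        obtain ⟨c, -, rfl⟩ := Finset.mem_image.mp hx
        simp only [Finset.mem_filter, Finset.mem_univ, true_and]
        rw [h, if_pos rfl]
        exact hd
      have h1 := Finset.card_le_card himg
      rw [Finset.card_image_of_injective _ (fun r r' e => (Prod.ext_iff.mp e).2), Finset.card_univ] at h1
      omega

end Combinatorics

section Family

variable {G : Type*} [Group G] [Fintype G] {W₁ W₂ : Subgroup G}

/-- The orders of the factors: odd, non-trivial, different. -/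
theorem card_factors (hW : IsSelfNormalizingCyclic W₁ W₂) (hodd : Odd (Nat.card ↥(W₁ ⊔ W₂))) :
    3 ≤ Nat.card W₁ ∧ 3 ≤ Nat.card W₂ ∧
      (Nat.card W₁ + 2 ≤ Nat.card W₂ ∨ Nat.card W₂ + 2 ≤ Nat.card W₁) := by
  rw [card_W hW] at hodd
  obtain ⟨⟨x, hx⟩, ⟨y, hy⟩⟩ := Nat.odd_mul.mp hodd
  have h1 : Nat.card W₁ ≠ 1 := fun h => hW.1 (Subgroup.eq_bot_of_card_eq _ h)
  have h2 : Nat.card W₂ ≠ 1 := fun h => hW.2.1 (Subgroup.eq_bot_of_card_eq _ h)
  have h3 : Nat.card W₁ ≠ Nat.card W₂ := by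
    intro h
    have e := OddLocal.eq_of_card_eq_of_le_isCyclic hW.2.2.2.2.1 le_sup_left le_sup_right h
    have h5 := hW.2.2.1
    rw [e, inf_idem] at h5
    exact hW.2.1 h5
  have h4 : 0 < Nat.card W₁ := Nat.card_pos
  omega

/-- The table of a function orthogonal to the two parts vanishes if few of its entries don't. -/
theorem family_zero (hW : IsSelfNormalizingCyclic W₁ W₂) (hodd : Odd (Nat.card ↥(W₁ ⊔ W₂)))
    (χ : (↥(W₁ ⊔ W₂) →* ℂˣ) → (G → ℂ)) (hχ : IsCyclicTIFamily W₁ W₂ χ)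
    (θ : G → ℂ) (hθ : IsClassFunction G θ)
    (hθV : ∀ w : ↥(W₁ ⊔ W₂), (w : G) ∉ W₁ → (w : G) ∉ W₂ → θ w = 0)
    {ξ₁ ξ₂ : ↥(W₁ ⊔ W₂) →* ℂˣ} (hfew : ∀ ξ, classInner θ (χ ξ) ≠ 0 → ξ = ξ₁ ∨ ξ = ξ₂)
    (ξ : ↥(W₁ ⊔ W₂) →* ℂˣ) : classInner θ (χ ξ) = 0 := by
  classical
  have hcomm := hW.2.2.2.1
  haveI := finite_rowT hW
  haveI := finite_colT hW
  letI : Fintype (RowT W₁ W₂) := Fintype.ofFinite _
  letI : Fintype (ColT W₁ W₂) := Fintype.ofFinite _
  have hcardR : Fintype.card (RowT W₁ W₂) = Nat.card W₁ := by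
    rw [← Nat.card_eq_fintype_card, card_rowT hW]
  have hcardC : Fintype.card (ColT W₁ W₂) = Nat.card W₂ := by
    rw [← Nat.card_eq_fintype_card, card_colT hW]
  let a : RowT W₁ W₂ → ColT W₁ W₂ → ℂ := fun r c => classInner θ (χ (r.1 * c.1))
  have hrect : ∀ r r' c c', a r c + a r' c' = a r c' + a r' c := by
    intro r r' c c'
    have h1 := table_eq hcomm χ hχ θ hθ hθV r.2 c.2
    have h2 := table_eq hcomm χ hχ θ hθ hθV r'.2 c'.2
    have h3 := table_eq hcomm χ hχ θ hθ hθV r.2 c'.2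
    have h4 := table_eq hcomm χ hχ θ hθ hθV r'.2 c.2
    simp only [a]
    rw [h1, h2, h3, h4]
    ring
  obtain ⟨h3₁, h3₂, hlt⟩ := card_factors hW hodd
  let e := homEquiv hW
  have hpq : ∀ x : RowT W₁ W₂ × ColT W₁ W₂, a x.1 x.2 ≠ 0 → x = e.symm ξ₁ ∨ x = e.symm ξ₂ := by
    intro x hx
    rcases hfew (x.1.1 * x.2.1) hx with h | h
    · left
      rw [Equiv.eq_symm_apply]
      exact h
    · right
      rw [Equiv.eq_symm_apply]
      exact h
  have hall : ∀ r c, a r c = 0 := by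
    rcases hlt with hlt | hlt
    · exact table_zero a (by rwa [hcardR]) (by rwa [hcardR, hcardC]) hrect hpq
    · intro r c
      have h0 := table_zero (fun c r => a r c) (by rwa [hcardC]) (by rwa [hcardR, hcardC])
        (fun c c' r r' => by
          have := hrect r r' c c'
          linear_combination this)
        (p := (e.symm ξ₁).swap) (q := (e.symm ξ₂).swap) (fun x hx => by
          rcases hpq x.swap hx with h | h
          · left
            rw [← h]
            rfl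
          · right
            rw [← h]
            rfl)
      exact h0 c r
  obtain ⟨⟨r, c⟩, hrc⟩ := (homPair_bijective hW).2 ξ
  simp only at hrc
  rw [← hrc]
  exact hall r c

/-- **Galois action on the family.** -/
theorem family_apply_pow (hW : IsSelfNormalizingCyclic W₁ W₂) (hodd : Odd (Nat.card ↥(W₁ ⊔ W₂)))
    (χ : (↥(W₁ ⊔ W₂) →* ℂˣ) → (G → ℂ)) (hχ : IsCyclicTIFamily W₁ W₂ χ)
    (ω : ↥(W₁ ⊔ W₂) →* ℂˣ) {k : ℕ} (hk : k.Coprime (Nat.card G)) (x : G) :
    χ ω (x ^ k) = χ (ω ^ k) x := by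
  classical
  have hpm : ∀ ν, IsPMIrr G (χ ν) := hχ.irr_or_neg
  let f : G → ℂ := fun y => χ ω (y ^ k)
  have hfpm : IsPMIrr G f := by
    rcases hχ.irr_or_neg ω with h | h
    · left
      exact isIrrCharacter_pow h hk
    · right
      have := isIrrCharacter_pow h hk
      convert this using 1
      funext y
      simp [f]
  let ν := ω ^ k
  let θ : G → ℂ := f - χ ν
  have hθ : IsClassFunction G θ :=
    IsGeneralizedCharacter.isClassFunction
      (IsGeneralizedCharacter.sub (IsPMIrr.isGeneralizedCharacter hfpm)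
        (IsPMIrr.isGeneralizedCharacter (hpm ν)))
  have hpowmem : ∀ (K : Subgroup G) (w : G), w ^ k ∈ K → w ∈ K := by
    intro K w hw
    have hc : k.Coprime (orderOf w) := Nat.Coprime.coprime_dvd_right (orderOf_dvd_natCard w) hk
    obtain ⟨m, hm⟩ := exists_pow_eq_self_of_coprime hc
    rw [← hm]
    exact K.pow_mem hw m
  have hθV : ∀ w : ↥(W₁ ⊔ W₂), (w : G) ∉ W₁ → (w : G) ∉ W₂ → θ w = 0 := by
    intro w h1 h2
    have h3 := hχ.eq_on ω (w ^ k) (fun h => h1 (hpowmem _ _ (by simpa using h)))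
      (fun h => h2 (hpowmem _ _ (by simpa using h)))
    have h4 := hχ.eq_on ν w h1 h2
    simp only [θ, Pi.sub_apply, f]
    have h5 : ((w : G) ^ k) = ((w ^ k : ↥(W₁ ⊔ W₂)) : G) := by simp
    rw [h5, h3, h4, map_pow]
    simp [ν, MonoidHom.pow_apply]
  have horth : ∀ ξ ξ', ξ ≠ ξ' → classInner (χ ξ) (χ ξ') = 0 := by
    intro ξ ξ' h
    rw [hχ.orthonormal, if_neg h]
  have hone : ∀ ξ, classInner (χ ξ) (χ ξ) = 1 := by
    intro ξ
    rw [hχ.orthonormal, if_pos rfl]
  have hval : ∀ ξ, classInner θ (χ ξ) = classInner f (χ ξ) - classInner (χ ν) (χ ξ) :=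
    fun ξ => classInner_sub_left _ _ _
  obtain ⟨ξ₀, hξ₀⟩ : ∃ ξ₀, ∀ ξ, classInner f (χ ξ) ≠ 0 → ξ = ξ₀ := by
    by_cases hex : ∃ ξ₀, classInner f (χ ξ₀) ≠ 0
    · obtain ⟨ξ₀, h0⟩ := hex
      refine ⟨ξ₀, fun ξ hξ => ?_⟩
      by_contra hne
      have h1 := horth ξ ξ₀ hne
      rcases IsPMIrr.classInner_cases hfpm (hpm ξ) with h | ⟨e, -⟩ | ⟨e, -⟩
      · exact hξ h
      · rw [e] at h0
        exact h0 h1
      · rw [e, classInner_neg_left, h1, neg_zero] at h0
        exact h0 rfl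
    · push Not at hex
      exact ⟨1, fun ξ hξ => absurd (hex ξ) hξ⟩
  have hfew : ∀ ξ, classInner θ (χ ξ) ≠ 0 → ξ = ξ₀ ∨ ξ = ν := by
    intro ξ hξ
    by_contra hcon
    push Not at hcon
    apply hξ
    rw [hval, horth ν ξ (fun h => hcon.2 h.symm)]
    have : classInner f (χ ξ) = 0 := by
      by_contra h
      exact hcon.1 (hξ₀ ξ h)
    rw [this, sub_zero]
  have hzero := family_zero hW hodd χ hχ θ hθ hθV hfew ν
  rw [hval, hone, sub_eq_zero] at hzero
  rcases IsPMIrr.classInner_cases hfpm (hpm ν) with h | ⟨e, -⟩ | ⟨e, h⟩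
  · rw [h] at hzero
    exact absurd hzero zero_ne_one
  · exact congrFun e x
  · rw [h] at hzero
    norm_num at hzero

variable {H : Type*} [Group H] [Finite H]

/-- The Galois action on a character value depends only on the roots of unity of the element's order. -/
theorem sigma_character_order {χ : H → ℂ} (hχ : IsCharacter H χ) (σ : ℂ →+* ℂ) (k : ℕ) (g : H)
    (hσ : ∀ ε : ℂ, ε ^ orderOf g = 1 → σ ε = ε ^ k) : σ (χ g) = χ (g ^ k) := by
  obtain ⟨n, ρ, rfl⟩ := hχ
  obtain ⟨μ, h1, h2⟩ := character_pow_eq_sum_eigen ρ g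
  rw [h2 k]
  have h3 := h2 1
  simp only [pow_one] at h3
  rw [h3, map_sum]
  exact Finset.sum_congr rfl fun i _ => hσ _ (h1 i)

theorem character_mem_cycField_order {χ : H → ℂ} (hχ : IsCharacter H χ) (g : H) :
    haveI : NeZero (orderOf g) := ⟨(orderOf_pos g).ne'⟩
    χ g ∈ cycField (orderOf g) := by
  haveI : NeZero (orderOf g) := ⟨(orderOf_pos g).ne'⟩
  obtain ⟨n, ρ, rfl⟩ := hχ
  obtain ⟨μ, h1, h2⟩ := character_pow_eq_sum_eigen ρ g
  have h3 := h2 1
  simp only [pow_one] at h3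
  rw [h3]
  exact sum_mem fun i _ => mem_cycField_of_pow_eq_one _ (h1 i)

/-- An exponent with prescribed residues and coprime to `N`. -/
theorem exists_exponent {N n m k : ℕ} (hN : N ≠ 0) (hnm : n.Coprime m) (hd : n * m ∣ N) (hk : k.Coprime n) :
    ∃ k' : ℕ, k'.Coprime N ∧ k' ≡ k [MOD n] ∧ k' ≡ 1 [MOD m] := by
  have hn : n ≠ 0 := fun h => hN (by rw [h, zero_mul] at hd; exact Nat.eq_zero_of_zero_dvd hd)
  have hm : m ≠ 0 := fun h => hN (by rw [h, mul_zero] at hd; exact Nat.eq_zero_of_zero_dvd hd)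
  let k₀ := Nat.chineseRemainder hnm k 1
  have h1 : (k₀ : ℕ) ≡ k [MOD n] := k₀.2.1
  have h2 : (k₀ : ℕ) ≡ 1 [MOD m] := k₀.2.2
  have hc1 : (k₀ : ℕ).Coprime n := by
    rw [Nat.Coprime, h1.gcd_eq]
    exact hk
  have hc2 : (k₀ : ℕ).Coprime m := by
    rw [Nat.Coprime, h2.gcd_eq]
    simp
  have hc : (k₀ : ℕ).Coprime (n * m) := Nat.Coprime.mul_right hc1 hc2
  haveI : NeZero N := ⟨hN⟩
  haveI : NeZero (n * m) := ⟨mul_ne_zero hn hm⟩
  obtain ⟨v, hv⟩ := ZMod.unitsMap_surjective hd (ZMod.unitOfCoprime _ hc)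
  refine ⟨(v : ZMod N).val, ZMod.val_coe_unit_coprime v, ?_, ?_⟩
  all_goals
    have h3 : (((v : ZMod N).val : ℕ) : ZMod (n * m)) = ((k₀ : ℕ) : ZMod (n * m)) := by
      have := congrArg Units.val hv
      rw [ZMod.coe_unitOfCoprime] at this
      rw [← this]
      simp [ZMod.unitsMap_def]
    have h4 : (v : ZMod N).val ≡ (k₀ : ℕ) [MOD n * m] := (ZMod.natCast_eq_natCast_iff _ _ _).mp h3
  · exact (h4.of_mul_right m).trans h1
  · exact (h4.of_mul_left n).trans h2

end Family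

end Cfsg.Agent.Lib.OddChar
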