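import Cfsg.Agent.Lib.OddChar.CyclicTI2

/-! # The rectangular table of a cyclic T.I. family: combinatorics and the parametrisation of the
linear characters of `W = W₁ × W₂`. -/

set_option autoImplicit false

namespace Cfsg.Agent.Lib.OddChar

open Cfsg Cfsg.Agent.Lib.Char
open scoped ComplexConjugate

section Combinatorics

variable {R C : Type*} [Fintype R] [Fintype C]

/-- A table `f(r) + g(c)` with few non-zero entries has a single non-zero row or column. -/
theorem table_trichotomy [DecidableEq R] [DecidableEq C] (a : R → C → ℂ)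
    (hm : Fintype.card R + 2 ≤ Fintype.card C)
    (hrect : ∀ r r' c c', a r c + a r' c' = a r c' + a r' c)
    (hfew : ((Finset.univ : Finset (R × C)).filter (fun p => a p.1 p.2 ≠ 0)).card < 2 * Fintype.card R) :
    (∃ c₀ d, ∀ r c, a r c = if c = c₀ then d else 0) ∨
      (∃ r₀ d, ∀ r c, a r c = if r = r₀ then d else 0) := by
  classical
  let N : R → ℕ := fun r => (Finset.univ.filter (fun c => a r c ≠ 0)).card
  have hcount : ((Finset.univ : Finset (R × C)).filter (fun p => a p.1 p.2 ≠ 0)).card = ∑ r, N r := by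
    rw [Finset.card_filter, Fintype.sum_prod_type]
    refine Finset.sum_congr rfl fun r _ => ?_
    simp only [N]
    rw [Finset.card_filter]
  rw [hcount] at hfew
  have hrow : ∃ r₁, N r₁ ≤ 1 := by
    by_contra hcon
    push Not at hcon
    have h1 : ∑ _r : R, 2 ≤ ∑ r, N r := Finset.sum_le_sum fun r _ => hcon r
    simp only [Finset.sum_const, Finset.card_univ, smul_eq_mul] at h1
    omega
  obtain ⟨r₁, hr₁⟩ := hrow
  have hCnt : Nontrivial C := Fintype.one_lt_card_iff_nontrivial.mp (by omega)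
  obtain ⟨c₁, hc₁⟩ : ∃ c₁, ∀ c, c ≠ c₁ → a r₁ c = 0 := by
    by_cases hne : (Finset.univ.filter (fun c => a r₁ c ≠ 0)).Nonempty
    · obtain ⟨c₁, hc⟩ := hne
      refine ⟨c₁, fun c hc' => ?_⟩
      by_contra h
      exact hc' (Finset.card_le_one.mp hr₁ c (Finset.mem_filter.mpr ⟨Finset.mem_univ _, h⟩) c₁ hc)
    · refine ⟨Classical.arbitrary C, fun c _ => ?_⟩
      by_contra h
      exact hne ⟨c, Finset.mem_filter.mpr ⟨Finset.mem_univ _, h⟩⟩
  obtain ⟨c₂, hc₂⟩ := exists_ne c₁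
  let h : R → ℂ := fun r => a r c₂
  let d := a r₁ c₁
  have hoff : ∀ r c, c ≠ c₁ → a r c = h r := by
    intro r c hc
    have := hrect r r₁ c c₂
    rw [hc₁ c hc, hc₁ c₂ hc₂] at this
    simpa using this
  have hon : ∀ r, a r c₁ = h r + d := by
    intro r
    have := hrect r r₁ c₁ c₂
    rw [hc₁ c₂ hc₂] at this
    simpa using this
  have hNlow : ∀ r, h r ≠ 0 → Fintype.card C - 1 ≤ N r := by
    intro r hr
    calc Fintype.card C - 1 = (Finset.univ.erase c₁).card := by
          rw [Finset.card_erase_of_mem (Finset.mem_univ _), Finset.card_univ]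
      _ ≤ N r := Finset.card_le_card (fun c hc => Finset.mem_filter.mpr ⟨Finset.mem_univ _, by
          rw [hoff r c (Finset.ne_of_mem_erase hc)]; exact hr⟩)
  have htwo : ∀ r r', h r ≠ 0 → h r' ≠ 0 → r = r' := by
    intro r r' hr hr'
    by_contra hne
    have h1 := Finset.add_sum_erase Finset.univ N (Finset.mem_univ r)
    have h2 := Finset.add_sum_erase (Finset.univ.erase r) N
      (Finset.mem_erase.mpr ⟨fun e => hne e.symm, Finset.mem_univ r'⟩)
    have h3 := hNlow r hr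
    have h4 := hNlow r' hr'
    omega
  by_cases hall : ∀ r, h r = 0
  · left
    refine ⟨c₁, d, fun r c => ?_⟩
    by_cases hc : c = c₁
    · subst hc
      rw [if_pos rfl, hon, hall]
      simp
    · rw [if_neg hc, hoff r c hc, hall]
  · push Not at hall
    obtain ⟨r₂, hr₂⟩ := hall
    by_cases hd : d = 0
    · right
      refine ⟨r₂, h r₂, fun r c => ?_⟩
      have hac : a r c = h r := by
        by_cases hc : c = c₁
        · subst hc
          rw [hon, hd, add_zero]
        · exact hoff r c hc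
      by_cases hr : r = r₂
      · subst hr
        rw [if_pos rfl, hac]
      · rw [if_neg hr, hac]
        by_contra h'
        exact hr (htwo r r₂ h' hr₂)
    · exfalso
      have h1 : ∀ r ∈ Finset.univ.erase r₂, 1 ≤ N r := by
        intro r hr
        have hh : h r = 0 := by
          by_contra h'
          exact (Finset.ne_of_mem_erase hr) (htwo r r₂ h' hr₂)
        apply Finset.card_pos.mpr
        exact ⟨c₁, Finset.mem_filter.mpr ⟨Finset.mem_univ _, by rw [hon, hh, zero_add]; exact hd⟩⟩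
      have h2 := Finset.add_sum_erase Finset.univ N (Finset.mem_univ r₂)
      have h3 : (Finset.univ.erase r₂).card ≤ ∑ r ∈ Finset.univ.erase r₂, N r := by
        simpa using Finset.card_nsmul_le_sum _ _ 1 h1
      rw [Finset.card_erase_of_mem (Finset.mem_univ _), Finset.card_univ] at h3
      have h4 := hNlow r₂ hr₂
      have h5 : 0 < Fintype.card R := Fintype.card_pos_iff.mpr ⟨r₂⟩
      omega

end Combinatorics

section Pair

variable {G : Type*} [Group G] [Finite G] {W₁ W₂ : Subgroup G}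

/-- The linear characters of `W` trivial on `W₂`. -/
abbrev RowT (W₁ W₂ : Subgroup G) : Type _ :=
  {φ : ↥(W₁ ⊔ W₂) →* ℂˣ // ∀ w : ↥(W₁ ⊔ W₂), (w : G) ∈ W₂ → φ w = 1}

/-- The linear characters of `W` trivial on `W₁`. -/
abbrev ColT (W₁ W₂ : Subgroup G) : Type _ :=
  {ψ : ↥(W₁ ⊔ W₂) →* ℂˣ // ∀ w : ↥(W₁ ⊔ W₂), (w : G) ∈ W₁ → ψ w = 1}

theorem W_comm_of_cyclic (hW : IsSelfNormalizingCyclic W₁ W₂) (a b : ↥(W₁ ⊔ W₂)) : a * b = b * a := by
  haveI := hW.2.2.2.2.1
  letI := IsCyclic.commGroup (α := ↥(W₁ ⊔ W₂))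
  exact mul_comm a b

theorem finite_homW (hW : IsSelfNormalizingCyclic W₁ W₂) : Finite (↥(W₁ ⊔ W₂) →* ℂˣ) :=
  finite_hom (W_comm_of_cyclic hW)

theorem finite_rowT (hW : IsSelfNormalizingCyclic W₁ W₂) : Finite (RowT W₁ W₂) :=
  have := finite_homW hW
  inferInstance

theorem finite_colT (hW : IsSelfNormalizingCyclic W₁ W₂) : Finite (ColT W₁ W₂) :=
  have := finite_homW hW
  inferInstance

theorem le_normalizer_of_comm (hcomm : ∀ a ∈ W₁, ∀ b ∈ W₂, a * b = b * a) :
    W₂ ≤ Subgroup.normalizer (W₁ : Set G) := by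
  intro b hb
  rw [Subgroup.mem_normalizer_iff]
  intro a
  constructor
  · intro ha
    rw [← hcomm a ha b hb]
    simpa using ha
  · intro ha
    have h1 : b⁻¹ * (b * a * b⁻¹) * b⁻¹⁻¹ ∈ W₁ := by
      have hb' := W₂.inv_mem hb
      rw [← hcomm _ ha _ hb']
      simpa using ha
    have e : b⁻¹ * (b * a * b⁻¹) * b⁻¹⁻¹ = a := by group
    rwa [e] at h1

theorem card_W (hW : IsSelfNormalizingCyclic W₁ W₂) :
    Nat.card ↥(W₁ ⊔ W₂) = Nat.card W₁ * Nat.card W₂ :=
  OddLocal.card_sup_of_disjoint (le_normalizer_of_comm hW.2.2.2.1) hW.2.2.1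

theorem card_rowT (hW : IsSelfNormalizingCyclic W₁ W₂) : Nat.card (RowT W₁ W₂) = Nat.card W₁ := by
  have h1 : Nat.card (RowT W₁ W₂) = (W₂.subgroupOf (W₁ ⊔ W₂)).index :=
    card_triv (W_comm_of_cyclic hW) (W₂.subgroupOf (W₁ ⊔ W₂))
  rw [h1]
  have h2 := Subgroup.index_mul_card (W₂.subgroupOf (W₁ ⊔ W₂))
  rw [OddLocal.card_subgroupOf_of_le le_sup_right, card_W hW] at h2
  exact Nat.eq_of_mul_eq_mul_right Nat.card_pos h2

theorem card_colT (hW : IsSelfNormalizingCyclic W₁ W₂) : Nat.card (ColT W₁ W₂) = Nat.card W₂ := by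
  have h1 : Nat.card (ColT W₁ W₂) = (W₁.subgroupOf (W₁ ⊔ W₂)).index :=
    card_triv (W_comm_of_cyclic hW) (W₁.subgroupOf (W₁ ⊔ W₂))
  rw [h1]
  have h2 := Subgroup.index_mul_card (W₁.subgroupOf (W₁ ⊔ W₂))
  rw [OddLocal.card_subgroupOf_of_le le_sup_left, card_W hW, mul_comm (Nat.card W₁)] at h2
  exact Nat.eq_of_mul_eq_mul_right Nat.card_pos h2

/-- The product map from rows and columns to the linear characters of `W`. -/
theorem homPair_bijective (hW : IsSelfNormalizingCyclic W₁ W₂) :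
    Function.Bijective (fun p : RowT W₁ W₂ × ColT W₁ W₂ => p.1.1 * p.2.1) := by
  haveI := finite_homW hW
  haveI := finite_rowT hW
  haveI := finite_colT hW
  have hinj : Function.Injective (fun p : RowT W₁ W₂ × ColT W₁ W₂ => p.1.1 * p.2.1) := by
    rintro ⟨⟨φ, hφ⟩, ⟨ψ, hψ⟩⟩ ⟨⟨φ', hφ'⟩, ⟨ψ', hψ'⟩⟩ h
    obtain ⟨h1, h2⟩ := hom_product_unique hW.2.2.2.1 hφ hφ' hψ hψ' h
    subst h1
    subst h2
    rfl
  refine (Nat.bijective_iff_injective_and_card _).mpr ⟨hinj, ?_⟩
  rw [Nat.card_prod, card_rowT hW, card_colT hW, card_hom (W_comm_of_cyclic hW), card_W hW]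

/-- Every linear character of `W` is a unique product of a row and a column. -/
noncomputable def homEquiv (hW : IsSelfNormalizingCyclic W₁ W₂) :
    RowT W₁ W₂ × ColT W₁ W₂ ≃ (↥(W₁ ⊔ W₂) →* ℂˣ) :=
  Equiv.ofBijective _ (homPair_bijective hW)

@[simp] theorem homEquiv_apply (hW : IsSelfNormalizingCyclic W₁ W₂) (p : RowT W₁ W₂ × ColT W₁ W₂) :
    homEquiv hW p = p.1.1 * p.2.1 := rfl

/-- `ω ψ₀⁻¹` trivial on `W₂` is the same as having column `ψ₀`. -/
theorem col_iff (hW : IsSelfNormalizingCyclic W₁ W₂) (r : RowT W₁ W₂) (c c₀ : ColT W₁ W₂) :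
    (∀ w : ↥(W₁ ⊔ W₂), (w : G) ∈ W₂ → ((r.1 * c.1) * c₀.1⁻¹) w = 1) ↔ c = c₀ := by
  constructor
  · intro h
    apply Subtype.ext
    have h1 : c.1 * c₀.1⁻¹ = 1 := by
      apply hom_eq_one_of_triv hW.2.2.2.1
      · intro w hw
        rw [MonoidHom.mul_apply, MonoidHom.inv_apply, c.2 w hw, c₀.2 w hw]
        simp
      · intro w hw
        have := h w hw
        rw [MonoidHom.mul_apply, MonoidHom.mul_apply, r.2 w hw, one_mul] at this
        rwa [MonoidHom.mul_apply]
    exact mul_inv_eq_one.mp h1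
  · rintro rfl w hw
    rw [MonoidHom.mul_apply, MonoidHom.mul_apply, r.2 w hw, one_mul, MonoidHom.inv_apply]
    simp

/-- `ω φ₀⁻¹` trivial on `W₁` is the same as having row `φ₀`. -/
theorem row_iff (hW : IsSelfNormalizingCyclic W₁ W₂) (r r₀ : RowT W₁ W₂) (c : ColT W₁ W₂) :
    (∀ w : ↥(W₁ ⊔ W₂), (w : G) ∈ W₁ → ((r.1 * c.1) * r₀.1⁻¹) w = 1) ↔ r = r₀ := by
  constructor
  · intro h
    apply Subtype.ext
    have h1 : r.1 * r₀.1⁻¹ = 1 := by
      apply hom_eq_one_of_triv hW.2.2.2.1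
      · intro w hw
        have := h w hw
        rw [MonoidHom.mul_apply, MonoidHom.mul_apply, c.2 w hw, mul_one] at this
        rwa [MonoidHom.mul_apply]
      · intro w hw
        rw [MonoidHom.mul_apply, MonoidHom.inv_apply, r.2 w hw, r₀.2 w hw]
        simp
    exact mul_inv_eq_one.mp h1
  · rintro rfl w hw
    rw [MonoidHom.mul_apply, MonoidHom.mul_apply, c.2 w hw, mul_one, MonoidHom.inv_apply]
    simp

end Pair

end Cfsg.Agent.Lib.OddChar
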